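/-
Cosets of standard subgroups of a group with the exchange condition.
-/
import Cfsg.Agent.Lib.LieBN.Exchange

set_option autoImplicit false

namespace Cfsg.Lib.LieBN

variable {W : Type*} [Group W] {ι : Type*} {σ : ι → W}

/-- the standard subgroup of a set of generators -/
def Wp (σ : ι → W) (K : Set ι) : Subgroup W := Subgroup.closure (σ '' K)

/-- no right descent in `K` -/
def RMin (σ : ι → W) (K : Set ι) (w : W) : Prop := ∀ i ∈ K, wlen σ w < wlen σ (w * σ i)

/-- all of `K` are right descents -/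
def DMax (σ : ι → W) (K : Set ι) (w : W) : Prop := ∀ i ∈ K, wlen σ (w * σ i) < wlen σ w

/-- no left descent in `J`, no right descent in `K` -/
def DMin (σ : ι → W) (J K : Set ι) (w : W) : Prop := (∀ j ∈ J, wlen σ w < wlen σ (σ j * w)) ∧ RMin σ K w

theorem sigma_mem_Wp {K : Set ι} {i : ι} (hi : i ∈ K) : σ i ∈ Wp σ K := Subgroup.subset_closure ⟨i, hi, rfl⟩

theorem wprod_mem_Wp {K : Set ι} {L : List ι} (hL : ∀ i ∈ L, i ∈ K) : wprod σ L ∈ Wp σ K :=
  list_prod_mem fun x hx => by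
    obtain ⟨i, hi, rfl⟩ := List.mem_map.1 hx
    exact sigma_mem_Wp (hL i hi)

theorem Wp_mono {J K : Set ι} (h : J ⊆ K) : Wp σ J ≤ Wp σ K := Subgroup.closure_mono (Set.image_mono h)

variable (h : Exch σ)
include h

theorem Exch.wlen_inv' (w : W) : wlen σ w⁻¹ = wlen σ w := h.toInvGen.wlen_inv w

theorem Exch.len_ne_right (w : W) (i : ι) : wlen σ (w * σ i) ≠ wlen σ w := by
  have := h.len_ne i w⁻¹
  rwa [← h.toInvGen.inv_eq i, ← mul_inv_rev, h.wlen_inv', h.wlen_inv'] at this

theorem Exch.cases_right (w : W) (i : ι) :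
    wlen σ (w * σ i) = wlen σ w + 1 ∨ wlen σ (w * σ i) + 1 = wlen σ w := by
  have := h.cases_len i w⁻¹
  rwa [← h.toInvGen.inv_eq i, ← mul_inv_rev, h.wlen_inv', h.wlen_inv'] at this

theorem Exch.exch_right (L : List ι) (i : ι) (hr : IsReducedWord σ L)
    (hlt : wlen σ (wprod σ L * σ i) < L.length) :
    ∃ j < L.length, wprod σ L * σ i = wprod σ (L.eraseIdx j) := by
  have hr' : IsReducedWord σ L.reverse := by
    unfold IsReducedWord at *
    rw [h.toInvGen.wprod_reverse, h.wlen_inv', List.length_reverse, hr]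
  obtain ⟨j, hj, e⟩ := h.exch i L.reverse hr' (by
    rw [h.toInvGen.wprod_reverse, ← h.toInvGen.inv_eq i, ← mul_inv_rev, h.wlen_inv', List.length_reverse]
    exact hlt)
  rw [List.length_reverse] at hj
  refine ⟨L.length - 1 - j, by omega, ?_⟩
  have e2 : wprod σ L * σ i = (σ i * wprod σ L.reverse)⁻¹ := by
    rw [h.toInvGen.wprod_reverse, mul_inv_rev, inv_inv, h.toInvGen.inv_eq]
  have key : ∀ (L : List ι) (j : ℕ), j < L.length →
      (L.reverse.eraseIdx j).reverse = L.eraseIdx (L.length - 1 - j) := by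
    intro L j hj
    rw [List.eraseIdx_eq_take_drop_succ, List.eraseIdx_eq_take_drop_succ, List.reverse_append, List.take_reverse,
      List.drop_reverse, List.reverse_reverse, List.reverse_reverse]
    congr 2 <;> omega
  rw [e2, e, ← h.toInvGen.wprod_reverse, key L j hj]

theorem Exch.mem_Wp {K : Set ι} {x : W} (hx : x ∈ Wp σ K) :
    ∃ L, (∀ i ∈ L, i ∈ K) ∧ IsReducedWord σ L ∧ wprod σ L = x := by
  obtain ⟨M, hM, rfl⟩ : ∃ M, (∀ i ∈ M, i ∈ K) ∧ wprod σ M = x := by
    induction hx using Subgroup.closure_induction_left with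
    | one => exact ⟨[], by simp, by simp⟩
    | mul_left g hg y _ ih =>
      obtain ⟨i, hi, rfl⟩ := hg
      obtain ⟨M, hM, rfl⟩ := ih
      exact ⟨i :: M, List.forall_mem_cons.2 ⟨hi, hM⟩, by simp⟩
    | inv_mul_cancel g hg y _ ih =>
      obtain ⟨i, hi, rfl⟩ := hg
      obtain ⟨M, hM, rfl⟩ := ih
      exact ⟨i :: M, List.forall_mem_cons.2 ⟨hi, hM⟩, by simp [h.toInvGen.inv_eq]⟩
  exact h.exists_reduced_of_word K M hM

/-- peel the last letter off a reduced word in a standard subgroup -/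
theorem Exch.Wp_induction {K : Set ι} {motive : W → Prop} (one : motive 1)
    (step : ∀ x ∈ Wp σ K, ∀ i ∈ K, wlen σ (x * σ i) = wlen σ x + 1 → motive x → motive (x * σ i))
    {x : W} (hx : x ∈ Wp σ K) : motive x := by
  obtain ⟨L, hL, hr, rfl⟩ := h.mem_Wp hx
  clear hx
  induction L using List.reverseRecOn with
  | nil => simpa using one
  | append_singleton L i ih =>
    have hrL := h.toInvGen.isReduced_left hr
    have e : wprod σ (L ++ [i]) = wprod σ L * σ i := by simp [wprod_append]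
    rw [e]
    refine step _ (wprod_mem_Wp fun j hj => hL j (List.mem_append_left _ hj)) i (hL i (by simp)) ?_
      (ih (fun j hj => hL j (List.mem_append_left _ hj)) hrL)
    unfold IsReducedWord at hr hrL
    rw [e, List.length_append] at hr
    rw [← hr, ← hrL]
    simp

/-- lengths add over a shortest coset representative -/
theorem Exch.min_add {K : Set ι} {u : W} (hu : ∀ x ∈ Wp σ K, wlen σ u ≤ wlen σ (u * x)) :
    ∀ x ∈ Wp σ K, wlen σ (u * x) = wlen σ u + wlen σ x := by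
  intro x hx
  obtain ⟨M, hM, hrM, rfl⟩ := h.mem_Wp hx
  clear hx
  induction M using List.reverseRecOn with
  | nil => simp [h.toInvGen.wlen_eq_zero.2]
  | append_singleton M i ih =>
    have hrM' := h.toInvGen.isReduced_left hrM
    have hMK : ∀ j ∈ M, j ∈ K := fun j hj => hM j (List.mem_append_left _ hj)
    have ih' := ih hMK hrM'
    have e : wprod σ (M ++ [i]) = wprod σ M * σ i := by simp [wprod_append]
    rw [e]
    have hlen : wlen σ (wprod σ M * σ i) = wlen σ (wprod σ M) + 1 := by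
      unfold IsReducedWord at hrM hrM'
      rw [e, List.length_append] at hrM
      rw [← hrM, ← hrM']; simp
    rw [hlen, ← mul_assoc]
    rcases h.cases_right (u * wprod σ M) i with hc | hc
    · omega
    exfalso
    obtain ⟨L, hL, hLu⟩ := h.toInvGen.exists_reduced u
    subst hLu
    have hr : IsReducedWord σ (L ++ M) := by
      unfold IsReducedWord at hrM' ⊢
      rw [wprod_append, List.length_append, ih', hrM', hL]
    rw [← wprod_append] at hc
    obtain ⟨j, hj, ej⟩ := h.exch_right (L ++ M) i hr (by rw [hr]; omega)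
    rw [List.eraseIdx_append] at ej
    split at ej
    · rename_i hjL
      rw [wprod_append, wprod_append, mul_assoc, ← eq_mul_inv_iff_mul_eq, mul_assoc] at ej
      have hmem : wprod σ M * σ i * (wprod σ M)⁻¹ ∈ Wp σ K :=
        mul_mem (mul_mem (wprod_mem_Wp hMK) (sigma_mem_Wp (hM i (by simp)))) (inv_mem (wprod_mem_Wp hMK))
      have h1 := hu _ hmem
      have e' : wprod σ L * (wprod σ M * σ i * (wprod σ M)⁻¹) = wprod σ (L.eraseIdx j) := by
        have e'' : wprod σ L = wprod σ (L.eraseIdx j) * (wprod σ M * (wprod σ M * σ i)⁻¹) := by rw [ej]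
        rw [e'']
        group
      rw [e'] at h1
      have h2 := wlen_le (σ := σ) (L.eraseIdx j)
      rw [List.length_eraseIdx_of_lt hjL] at h2
      rw [← hL] at h1
      omega
    · rename_i hjL
      rw [wprod_append, wprod_append, mul_assoc, mul_right_inj] at ej
      have h2 := wlen_le (σ := σ) (M.eraseIdx (j - L.length))
      rw [List.length_append] at hj
      rw [← ej, hlen, List.length_eraseIdx_of_lt (by omega), hrM'] at h2
      omega

theorem Exch.exists_min (K : Set ι) (w : W) :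
    ∃ u, ∃ x ∈ Wp σ K, w = u * x ∧ ∀ y ∈ Wp σ K, wlen σ u ≤ wlen σ (u * y) := by
  classical
  have hne : ∃ n, ∃ y ∈ Wp σ K, wlen σ (w * y) = n := ⟨_, 1, one_mem _, rfl⟩
  obtain ⟨y, hy, e⟩ := Nat.find_spec hne
  refine ⟨w * y, y⁻¹, inv_mem hy, by group, fun z hz => ?_⟩
  rw [e]
  exact Nat.find_min' hne ⟨y * z, mul_mem hy hz, by rw [mul_assoc]⟩

theorem Exch.rmin_of_min {K : Set ι} {u : W} (hu : ∀ x ∈ Wp σ K, wlen σ u ≤ wlen σ (u * x)) : RMin σ K u :=
  fun i hi => lt_of_le_of_ne (hu _ (sigma_mem_Wp hi)) (h.len_ne_right u i).symm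

theorem Exch.min_of_rmin {K : Set ι} {u : W} (hu : RMin σ K u) : ∀ x ∈ Wp σ K, wlen σ u ≤ wlen σ (u * x) := by
  obtain ⟨u₀, x, hx, rfl, h0⟩ := h.exists_min K u
  obtain ⟨L, hL, hr, rfl⟩ := h.mem_Wp hx
  rcases List.eq_nil_or_concat L with rfl | ⟨M, i, rfl⟩
  · simpa using h0
  · exfalso
    rw [List.concat_eq_append] at hL hr hu hx
    have hMK : ∀ j ∈ M, j ∈ K := fun j hj => hL j (List.mem_append_left _ hj)
    have e1 := hu i (hL i (by simp))
    have e : u₀ * wprod σ (M ++ [i]) * σ i = u₀ * wprod σ M := by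
      simp [wprod_append, mul_assoc, h.mul_self i]
    rw [e, h.min_add h0 _ hx, h.min_add h0 _ (wprod_mem_Wp hMK), ← hr] at e1
    have := wlen_le (σ := σ) M
    simp at e1
    omega

theorem Exch.rmin_add {K : Set ι} {u x : W} (hu : RMin σ K u) (hx : x ∈ Wp σ K) :
    wlen σ (u * x) = wlen σ u + wlen σ x :=
  h.min_add (h.min_of_rmin hu) x hx

theorem Exch.exists_rmin (K : Set ι) (w : W) : ∃ u, ∃ x ∈ Wp σ K, RMin σ K u ∧ w = u * x := by
  obtain ⟨u, x, hx, e, hu⟩ := h.exists_min K w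
  exact ⟨u, x, hx, h.rmin_of_min hu, e⟩

theorem Exch.rmin_unique {K : Set ι} {u u' x x' : W} (hu : RMin σ K u) (hu' : RMin σ K u')
    (hx : x ∈ Wp σ K) (hx' : x' ∈ Wp σ K) (e : u * x = u' * x') : u = u' ∧ x = x' := by
  have hm : x' * x⁻¹ ∈ Wp σ K := mul_mem hx' (inv_mem hx)
  have e' : u = u' * (x' * x⁻¹) := by rw [← mul_assoc, ← e]; group
  have h1 := h.rmin_add hu' hm
  rw [← e'] at h1
  have h2 := h.min_of_rmin hu _ (inv_mem hm)
  rw [show u * (x' * x⁻¹)⁻¹ = u' by rw [e']; group] at h2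
  have h3 : wlen σ (x' * x⁻¹) = 0 := by omega
  rw [h.toInvGen.wlen_eq_zero] at h3
  rw [h3, mul_one] at e'
  subst e'
  exact ⟨rfl, mul_left_cancel e⟩

/-- an element all of whose `K` are descents lies above the whole standard subgroup -/
theorem Exch.dmax_sub {K : Set ι} {v : W} (hv : DMax σ K v) :
    ∀ y ∈ Wp σ K, wlen σ (v * y⁻¹) + wlen σ y = wlen σ v := by
  intro y hy
  refine h.Wp_induction (motive := fun y => wlen σ (v * y⁻¹) + wlen σ y = wlen σ v) ?_ ?_ hy
  · simp [h.toInvGen.wlen_eq_zero.2]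
  intro y hy i hi hlen ih
  obtain ⟨L, hL, hLv⟩ := h.toInvGen.exists_reduced (v * y⁻¹)
  obtain ⟨M, hMK, hrM, rfl⟩ := h.mem_Wp hy
  have e : wprod σ (L ++ M) = v := by rw [wprod_append, hLv]; group
  have hr : IsReducedWord σ (L ++ M) := by
    unfold IsReducedWord at hrM ⊢
    rw [e, List.length_append]; omega
  obtain ⟨j, hj, ej⟩ := h.exch_right (L ++ M) i hr (by rw [hr, e]; exact hv i hi)
  rw [List.eraseIdx_append] at ej
  split at ej
  · rename_i hjL
    rw [e, wprod_append] at ej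
    have e2 : v * (wprod σ M * σ i)⁻¹ = wprod σ (L.eraseIdx j) := by
      rw [mul_inv_rev, h.toInvGen.inv_eq, ← mul_assoc, ej]; group
    have h2 := wlen_le (σ := σ) (L.eraseIdx j)
    rw [List.length_eraseIdx_of_lt hjL, ← e2, hL] at h2
    have h3 := h.toInvGen.wlen_mul_le (v * (wprod σ M * σ i)⁻¹) (wprod σ M * σ i)
    rw [inv_mul_cancel_right] at h3
    unfold IsReducedWord at hrM
    rw [← hrM] at ih hlen
    omega
  · rename_i hjL
    rw [wprod_append, wprod_append, mul_assoc, mul_right_inj] at ej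
    rw [List.length_append] at hj
    have h2 := wlen_le (σ := σ) (M.eraseIdx (j - L.length))
    rw [← ej, hlen, List.length_eraseIdx_of_lt (by omega), hrM] at h2
    omega

theorem Exch.exists_dmax [Finite W] (K : Set ι) : ∃ m ∈ Wp σ K, DMax σ K m := by
  classical
  haveI := Fintype.ofFinite W
  obtain ⟨m, hm, hmax⟩ := (Finset.univ.filter fun x => x ∈ Wp σ K).exists_max_image (wlen σ)
    ⟨1, by simp [one_mem]⟩
  simp only [Finset.mem_filter, Finset.mem_univ, true_and] at hm hmax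
  exact ⟨m, hm, fun i hi => lt_of_le_of_ne (hmax _ (mul_mem hm (sigma_mem_Wp hi))) (h.len_ne_right m i)⟩

theorem Exch.dmax_unique {K : Set ι} {m m' : W} (hm : m ∈ Wp σ K) (hm' : m' ∈ Wp σ K) (h1 : DMax σ K m)
    (h2 : DMax σ K m') : m = m' := by
  have a := h.dmax_sub h1 m' hm'
  have b := h.dmax_sub h2 m hm
  have c : wlen σ (m * m'⁻¹) = 0 := by omega
  rw [h.toInvGen.wlen_eq_zero, mul_inv_eq_one] at c
  exact c

/-- descents of a product with a shortest representative -/
theorem Exch.dmax_mul_iff {K : Set ι} {u x : W} (hu : RMin σ K u) (hx : x ∈ Wp σ K) :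
    DMax σ K (u * x) ↔ DMax σ K x := by
  refine forall₂_congr fun i hi => ?_
  rw [mul_assoc, h.rmin_add hu (mul_mem hx (sigma_mem_Wp hi)), h.rmin_add hu hx]
  omega

theorem Exch.exists_dmin_min (J K : Set ι) (v : W) :
    ∃ a ∈ Wp σ J, ∃ w, ∃ b ∈ Wp σ K, DMin σ J K w ∧ v = a * w * b ∧
      ∀ c ∈ Wp σ J, ∀ d ∈ Wp σ K, wlen σ w ≤ wlen σ (c * w * d) := by
  classical
  have hne : ∃ n, ∃ a ∈ Wp σ J, ∃ b ∈ Wp σ K, wlen σ (a * v * b) = n := ⟨_, 1, one_mem _, 1, one_mem _, rfl⟩
  obtain ⟨a, ha, b, hb, e⟩ := Nat.find_spec hne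
  have hmin : ∀ c ∈ Wp σ J, ∀ d ∈ Wp σ K, wlen σ (a * v * b) ≤ wlen σ (c * (a * v * b) * d) := by
    intro c hc d hd
    rw [e]
    exact Nat.find_min' hne ⟨c * a, mul_mem hc ha, b * d, mul_mem hb hd, by simp only [mul_assoc]⟩
  refine ⟨a⁻¹, inv_mem ha, a * v * b, b⁻¹, inv_mem hb, ⟨fun j hj => ?_, fun i hi => ?_⟩, by group, hmin⟩
  · have := hmin (σ j) (sigma_mem_Wp hj) 1 (one_mem _)
    rw [mul_one] at this
    exact lt_of_le_of_ne this (h.len_ne j _).symm
  · have := hmin 1 (one_mem _) (σ i) (sigma_mem_Wp hi)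
    rw [one_mul] at this
    exact lt_of_le_of_ne this (h.len_ne_right _ i).symm

theorem Exch.exists_dmin (J K : Set ι) (v : W) :
    ∃ a ∈ Wp σ J, ∃ w, ∃ b ∈ Wp σ K, DMin σ J K w ∧ v = a * w * b := by
  obtain ⟨a, ha, w, b, hb, h1, h2, -⟩ := h.exists_dmin_min J K v
  exact ⟨a, ha, w, b, hb, h1, h2⟩

theorem Exch.left_add {J : Set ι} {v a : W} (hv : ∀ j ∈ J, wlen σ v < wlen σ (σ j * v)) (ha : a ∈ Wp σ J) :
    wlen σ (a * v) = wlen σ a + wlen σ v := by
  have hv' : RMin σ J v⁻¹ := fun i hi => by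
    rw [← h.toInvGen.inv_eq i, ← mul_inv_rev, h.wlen_inv', h.wlen_inv']
    exact hv i hi
  have := h.rmin_add hv' (inv_mem ha)
  rw [← mul_inv_rev, h.wlen_inv', h.wlen_inv', h.wlen_inv'] at this
  omega

theorem Exch.dmin_eq_min {J K : Set ι} {v w : W} (hv : DMin σ J K v) (hw : DMin σ J K w)
    (hmin : ∀ c ∈ Wp σ J, ∀ d ∈ Wp σ K, wlen σ w ≤ wlen σ (c * w * d)) {a b : W}
    (ha : a ∈ Wp σ J) (hb : b ∈ Wp σ K) (e : v = a * w * b) : v = w := by
  have e1 : v * b⁻¹ = a * w := by rw [e]; group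
  have e2 : w * b = a⁻¹ * v := by rw [e]; group
  have A1 := h.rmin_add hv.2 (inv_mem hb)
  rw [e1, h.left_add hw.1 ha, h.wlen_inv'] at A1
  have A2 := h.rmin_add hw.2 hb
  rw [e2, h.left_add hv.1 (inv_mem ha), h.wlen_inv'] at A2
  have hlen : wlen σ v = wlen σ w := by omega
  clear A1 A2 e1 e
  have key : ∀ b ∈ Wp σ K, ∀ a ∈ Wp σ J, w * b = a⁻¹ * v → v = w := by
    intro b hb
    refine h.Wp_induction (K := K)
      (motive := fun b => ∀ a ∈ Wp σ J, w * b = a⁻¹ * v → v = w) ?_ ?_ hb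
    · intro a ha e2
      rw [mul_one] at e2
      have h4 := h.left_add hv.1 (inv_mem ha)
      rw [← e2] at h4
      have h0 : wlen σ a⁻¹ = 0 := by omega
      rw [h.toInvGen.wlen_eq_zero] at h0
      rw [h0, one_mul] at e2
      exact e2.symm
    intro b hb i hi hlb ih a ha e2
    obtain ⟨A, hAJ, hrA, hAa⟩ := h.mem_Wp (inv_mem ha)
    obtain ⟨V, hV, hVv⟩ := h.toInvGen.exists_reduced v
    have hr : IsReducedWord σ (A ++ V) := by
      unfold IsReducedWord at hrA ⊢
      rw [wprod_append, hAa, hVv, h.left_add hv.1 (inv_mem ha), List.length_append, hrA, hAa, hV]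
    have e3 : wprod σ (A ++ V) = w * (b * σ i) := by rw [wprod_append, hAa, hVv, e2]
    have e4 : w * (b * σ i) * σ i = w * b := by simp [mul_assoc, h.mul_self i]
    obtain ⟨j, hj, ej⟩ := h.exch_right (A ++ V) i hr (by
      rw [hr, e3, e4, h.rmin_add hw.2 hb, h.rmin_add hw.2 (mul_mem hb (sigma_mem_Wp hi)), hlb]
      omega)
    rw [List.eraseIdx_append, e3, e4] at ej
    split at ej
    · rw [wprod_append, hVv] at ej
      refine ih (wprod σ (A.eraseIdx j))⁻¹
        (inv_mem (wprod_mem_Wp fun k hk => hAJ k (List.mem_of_mem_eraseIdx hk))) ?_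
      rw [inv_inv, ej]
    · rename_i hjA
      rw [wprod_append] at ej
      exfalso
      rw [List.length_append] at hj
      have h2 := wlen_le (σ := σ) (V.eraseIdx (j - A.length))
      rw [List.length_eraseIdx_of_lt (by omega)] at h2
      have h3 := hmin (wprod σ A)⁻¹ (inv_mem (wprod_mem_Wp hAJ)) b hb
      rw [mul_assoc, ej, inv_mul_cancel_left, ← hlen, ← hVv] at h3
      rw [hVv] at h3
      omega
  exact key b hb a ha e2

theorem Exch.dmin_unique {J K : Set ι} {v w : W} (hv : DMin σ J K v) (hw : DMin σ J K w) {a b : W}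
    (ha : a ∈ Wp σ J) (hb : b ∈ Wp σ K) (e : v = a * w * b) : v = w := by
  obtain ⟨a', ha', m, b', hb', hm, em, hmin⟩ := h.exists_dmin_min J K w
  have h1 := h.dmin_eq_min hw hm hmin ha' hb' em
  have h2 := h.dmin_eq_min hv hm hmin (mul_mem ha ha') (mul_mem hb' hb) (by rw [e, em]; simp only [mul_assoc])
  rw [h1, h2]

end Cfsg.Lib.LieBN
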