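/-
Cells of the coset spaces of a (B,N)-pair, and the alternating sums of their fixed points.
-/
import Cfsg.Agent.Lib.LieBN.Basic
import Cfsg.Agent.Lib.LieBN.Coset

set_option autoImplicit false
set_option linter.unusedSectionVars false

namespace Cfsg.Lib.LieBN

variable {G : Type*} [Group G] (P : Cfsg.BNPair G)

/-- the standard parabolic subgroup of a set of generators -/
def parK (K : Set P.S) : Subgroup G := P.parabolic (Subtype.val '' K)

/-- the Weyl group element of a chamber -/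
noncomputable def cl (x : G ⧸ P.B) : Weyl P :=
  Quotient.liftOn' x (fun g => (bruhat (P := P) g).choose) fun a b hab => by
    rw [QuotientGroup.leftRel_apply] at hab
    have h1 := ((bruhat (P := P) a).choose_spec).mul_right hab
    rw [mul_inv_cancel_left] at h1
    exact h1.unique (bruhat (P := P) b).choose_spec

variable {P}

theorem cl_spec (g : G) : InC P g (cl P (g : G ⧸ P.B)) := (bruhat (P := P) g).choose_spec

theorem cl_eq {g : G} {w : Weyl P} (h : InC P g w) : cl P (g : G ⧸ P.B) = w := (cl_spec g).unique h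

theorem cl_smul {b : G} (hb : b ∈ P.B) (x : G ⧸ P.B) : cl P (b • x) = cl P x := by
  obtain ⟨g, rfl⟩ := QuotientGroup.mk_surjective x
  exact cl_eq ((cl_spec g).mul_left hb)

theorem weylSub_val (K : Set P.S) : weylSub (P := P) (Subtype.val '' K) = Wp (sref P) K := by
  rw [weylSub, Wp]
  congr 2
  ext s
  simp [lab]

theorem val_subset (K : Set P.S) : Subtype.val '' K ⊆ P.S := by
  rintro _ ⟨s, -, rfl⟩; exact s.2

theorem B_le_parK (K : Set P.S) : P.B ≤ parK P K := le_sup_left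

theorem parK_mono {J K : Set P.S} (h : J ⊆ K) : parK P J ≤ parK P K :=
  sup_le_sup_left (Subgroup.closure_mono (Set.image_mono h)) _

theorem mem_parK {K : Set P.S} {g : G} : g ∈ parK P K ↔ cl P (g : G ⧸ P.B) ∈ Wp (sref P) K := by
  rw [parK, mem_parabolic_iff (val_subset K), weylSub_val]
  exact ⟨fun ⟨w, hw, h⟩ => cl_eq h ▸ hw, fun h => ⟨_, h, cl_spec g⟩⟩

theorem sref_mem_parK {K : Set P.S} {s : P.S} (hs : s ∈ K) : (s : G) ∈ parK P K :=
  Subgroup.mem_sup_right (Subgroup.subset_closure ⟨s, hs, rfl⟩)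

theorem parK_univ : parK P Set.univ = ⊤ := by
  rw [parK, Set.image_univ, Subtype.range_coe_subtype]
  exact parabolic_univ

/-- double cosets multiply when lengths add -/
theorem InC.mul_of_add {g h : G} {u x : Weyl P}
    (hl : wlen (sref P) (u * x) = wlen (sref P) u + wlen (sref P) x) (hg : InC P g u) (hh : InC P h x) :
    InC P (g * h) (u * x) := by
  obtain ⟨L, hL, rfl⟩ := (invGen P).exists_reduced u
  induction L generalizing g with
  | nil =>
    rw [wprod_nil, one_mul] at *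
    exact hh.mul_left (InC.one_iff.1 hg)
  | cons s L ih =>
    rw [wprod_cons] at hg hl hL ⊢
    obtain ⟨g₁, g₂, hg₁, hg₂, rfl⟩ := hg.factor
    have h1 := wlen_le (σ := sref P) L
    have h2 := (invGen P).wlen_mul_le_succ s (wprod (sref P) L * x)
    have h3 := (invGen P).wlen_mul_le (wprod (sref P) L) x
    simp only [List.length_cons] at hL
    rw [mul_assoc] at hl ⊢
    have h4 := (invGen P).wlen_mul_le_succ s (wprod (sref P) L)
    have hLr : L.length = wlen (sref P) (wprod (sref P) L) := by omega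
    have hl' : wlen (sref P) (wprod (sref P) L * x) = wlen (sref P) (wprod (sref P) L) + wlen (sref P) x := by omega
    rw [mul_assoc]
    exact InC.mul_sref_of_le (by omega) hg₁ (ih hl' hg₂ hLr)

/-- left multiplication by an element of a parabolic subgroup -/
theorem InC.mul_parK {J : Set P.S} {g h : G} {v : Weyl P} (hg : g ∈ parK P J) (hh : InC P h v) :
    ∃ a ∈ Wp (sref P) J, InC P (g * h) (a * v) := by
  have key : ∀ L : List P.S, (∀ i ∈ L, i ∈ J) → ∀ g, InC P g (wprod (sref P) L) →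
      ∃ a ∈ Wp (sref P) J, InC P (g * h) (a * v) := by
    intro L
    induction L with
    | nil =>
      intro _ g hg
      rw [wprod_nil] at hg
      exact ⟨1, one_mem _, by rw [one_mul]; exact hh.mul_left (InC.one_iff.1 hg)⟩
    | cons s L ih =>
      intro hL g hg
      rw [wprod_cons] at hg
      obtain ⟨g₁, g₂, hg₁, hg₂, rfl⟩ := hg.factor
      obtain ⟨a, ha, h2⟩ := ih (fun i hi => hL i (List.mem_cons_of_mem _ hi)) g₂ hg₂
      rw [mul_assoc g₁]
      rcases InC.mul_sref hg₁ h2 with r | r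
      · exact ⟨sref P s * a, mul_mem (sigma_mem_Wp (hL s List.mem_cons_self)) ha, by rw [mul_assoc]; exact r⟩
      · exact ⟨a, ha, r⟩
  obtain ⟨L, hL, -, hLe⟩ := (exch (P := P)).mem_Wp (mem_parK.1 hg)
  exact key L hL g (hLe ▸ cl_spec g)

theorem InC.mul_parK_right {K : Set P.S} {g h : G} {v : Weyl P} (hg : InC P g v) (hh : h ∈ parK P K) :
    ∃ b ∈ Wp (sref P) K, InC P (g * h) (v * b) := by
  obtain ⟨a, ha, r⟩ := InC.mul_parK (inv_mem hh) hg.inv
  exact ⟨a⁻¹, inv_mem ha, by simpa using r.inv⟩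

variable (P) in
/-- chambers onto the coset space of a parabolic subgroup -/
noncomputable def proj (K : Set P.S) (x : G ⧸ P.B) : G ⧸ parK P K :=
  Quotient.map' id (fun _ _ h => by
    rw [QuotientGroup.leftRel_apply] at h ⊢
    exact B_le_parK K h) x

theorem proj_mk (K : Set P.S) (g : G) : proj P K (g : G ⧸ P.B) = (g : G ⧸ parK P K) := rfl

theorem proj_smul (K : Set P.S) (g : G) (x : G ⧸ P.B) : proj P K (g • x) = g • proj P K x := by
  obtain ⟨h, rfl⟩ := QuotientGroup.mk_surjective x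
  rfl

theorem proj_surj {K : Set P.S} (y : G ⧸ parK P K) :
    ∃ x, RMin (sref P) K (cl P x) ∧ proj P K x = y := by
  obtain ⟨g, rfl⟩ := QuotientGroup.mk_surjective y
  obtain ⟨u, x, hx, hu, e⟩ := (exch (P := P)).exists_rmin K (cl P (g : G ⧸ P.B))
  obtain ⟨g₁, g₂, h1, h2, rfl⟩ := (e ▸ cl_spec g : InC P g (u * x)).factor
  refine ⟨(g₁ : G ⧸ P.B), by rwa [cl_eq h1], ?_⟩
  rw [proj_mk, QuotientGroup.eq, inv_mul_cancel_left]
  exact mem_parK.2 (by rwa [cl_eq h2])

theorem proj_inj {K : Set P.S} {x x' : G ⧸ P.B} (hx : RMin (sref P) K (cl P x)) (hx' : RMin (sref P) K (cl P x'))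
    (e : proj P K x = proj P K x') : x = x' := by
  obtain ⟨g, rfl⟩ := QuotientGroup.mk_surjective x
  obtain ⟨g', rfl⟩ := QuotientGroup.mk_surjective x'
  rw [proj_mk, proj_mk, QuotientGroup.eq] at e
  have hp := mem_parK.1 e
  have h1 := InC.mul_of_add ((exch (P := P)).rmin_add hx hp) (cl_spec g) (cl_spec (g⁻¹ * g'))
  rw [mul_inv_cancel_left] at h1
  have h2 := (cl_spec g').unique h1
  obtain ⟨-, h3⟩ := (exch (P := P)).rmin_unique hx' hx (one_mem _) hp (by rw [mul_one]; exact h2)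
  rw [QuotientGroup.eq]
  exact InC.one_iff.1 (h3 ▸ cl_spec (g⁻¹ * g'))

/-- the predecessor in a reduced gallery is unique -/
theorem pred_unique {g g' h h' : G} {u x : Weyl P}
    (hl : wlen (sref P) (u * x) = wlen (sref P) u + wlen (sref P) x) (hg : InC P g u) (hg' : InC P g' u)
    (hh : InC P h x) (hh' : InC P h' x) (e : ((g * h : G) : G ⧸ P.B) = (g' * h' : G)) :
    (g : G ⧸ P.B) = g' := by
  obtain ⟨L, hL, rfl⟩ := (invGen P).exists_reduced x
  induction L using List.reverseRecOn generalizing h h' with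
  | nil =>
    rw [wprod_nil] at hh hh'
    rw [QuotientGroup.eq] at e ⊢
    have := mul_mem (mul_mem (InC.one_iff.1 hh) e) (inv_mem (InC.one_iff.1 hh'))
    rwa [show h * ((g * h)⁻¹ * (g' * h')) * h'⁻¹ = g⁻¹ * g' by group] at this
  | append_singleton L s ih =>
    rw [wprod_append, wprod_cons, wprod_nil, mul_one] at hh hh' hl hL
    obtain ⟨h₁, h₂, a1, a2, rfl⟩ := hh.factor
    obtain ⟨h₁', h₂', b1, b2, rfl⟩ := hh'.factor
    have n1 := wlen_le (σ := sref P) L
    have n2 := (invGen P).wlen_mul_le (wprod (sref P) L) (sref P s)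
    have n3 := (invGen P).wlen_mul_le (u * wprod (sref P) L) (sref P s)
    have n4 := (invGen P).wlen_mul_le u (wprod (sref P) L)
    have n5 := (invGen P).wlen_sigma_le s
    rw [← mul_assoc] at hl
    simp only [List.length_append, List.length_cons, List.length_nil, zero_add] at hL
    have hl' : wlen (sref P) (u * wprod (sref P) L) =
        wlen (sref P) u + wlen (sref P) (wprod (sref P) L) := by omega
    have hmin : RMin (sref P) {s} (u * wprod (sref P) L) := fun i hi => by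
      rw [Set.mem_singleton_iff.1 hi]; omega
    refine ih (proj_inj (K := {s}) ?_ ?_ ?_) hl' a1 b1 (by omega)
    · rwa [cl_eq (InC.mul_of_add hl' hg a1)]
    · rwa [cl_eq (InC.mul_of_add hl' hg' b1)]
    · have hs : ∀ {a}, InC P a (sref P s) → a ∈ parK P {s} := fun ha =>
        mem_parK.2 (by rw [cl_eq ha]; exact sigma_mem_Wp rfl)
      have e' := congrArg (proj P {s}) e
      rw [proj_mk, proj_mk] at e' ⊢
      rw [QuotientGroup.eq] at e' ⊢
      have := mul_mem (mul_mem (hs a2) e') (inv_mem (hs b2))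
      rwa [show h₂ * ((g * (h₁ * h₂))⁻¹ * (g' * (h₁' * h₂'))) * h₂'⁻¹ = (g * h₁)⁻¹ * (g' * h₁') by group] at this

section Count

variable [Finite G]

variable (P) in
/-- fixed chambers in a cell -/
noncomputable def cfix (b : G) (w : Weyl P) : ℕ := Nat.card {x : G ⧸ P.B // cl P x = w ∧ b • x = x}

variable (P) in
/-- size of a cell -/
noncomputable def ncell (w : Weyl P) : ℕ := Nat.card {x : G ⧸ P.B // cl P x = w}

theorem cfix_one (w : Weyl P) : cfix P 1 w = ncell P w :=
  Nat.card_congr (Equiv.subtypeEquivRight fun x => by simp)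

theorem ncell_one : ncell P 1 = 1 := by
  rw [ncell, Nat.card_eq_one_iff_unique]
  refine ⟨⟨fun a b => Subtype.ext ?_⟩, ⟨⟨((1 : G) : G ⧸ P.B), cl_eq (InC.one_iff.2 (one_mem _))⟩⟩⟩
  have key : ∀ x : G ⧸ P.B, cl P x = 1 → x = ((1 : G) : G ⧸ P.B) := fun x hx => by
    obtain ⟨g, rfl⟩ := QuotientGroup.mk_surjective x
    rw [QuotientGroup.eq, mul_one]
    exact inv_mem (InC.one_iff.1 (hx ▸ cl_spec g))
  rw [key _ a.2, key _ b.2]

theorem ncell_mul {u x : Weyl P} (hl : wlen (sref P) (u * x) = wlen (sref P) u + wlen (sref P) x) :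
    ncell P (u * x) = ncell P u * ncell P x := by
  rw [ncell, ncell, ncell, ← Nat.card_prod]
  refine (Nat.card_congr (Equiv.ofBijective
    (fun p : {a : G ⧸ P.B // cl P a = u} × {c : G ⧸ P.B // cl P c = x} =>
      (⟨(p.1.1.out : G) • p.2.1, ?_⟩ : {y : G ⧸ P.B // cl P y = u * x})) ⟨?_, ?_⟩)).symm
  · obtain ⟨h, hh⟩ := QuotientGroup.mk_surjective p.2.1
    rw [← hh]
    refine cl_eq (InC.mul_of_add hl ?_ ?_)
    · have := cl_spec (P := P) p.1.1.out
      rwa [QuotientGroup.out_eq', p.1.2] at this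
    · have := cl_spec (P := P) h
      rwa [hh, p.2.2] at this
  · rintro ⟨⟨a, ha⟩, ⟨c, hc⟩⟩ ⟨⟨a', ha'⟩, ⟨c', hc'⟩⟩ e
    have e' : (a.out : G) • c = (a'.out : G) • c' := congrArg Subtype.val e
    obtain ⟨h, rfl⟩ := QuotientGroup.mk_surjective c
    obtain ⟨h', rfl⟩ := QuotientGroup.mk_surjective c'
    have ho : ∀ b : G ⧸ P.B, cl P b = u → InC P b.out u := fun b hb => by
      have := cl_spec (P := P) b.out
      rwa [QuotientGroup.out_eq', hb] at this
    have h1 := pred_unique hl (ho a ha) (ho a' ha') (hc ▸ cl_spec h) (hc' ▸ cl_spec h') e'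
    rw [QuotientGroup.out_eq', QuotientGroup.out_eq'] at h1
    subst h1
    exact Prod.ext rfl (Subtype.ext (MulAction.injective _ e'))
  · rintro ⟨y, hy⟩
    obtain ⟨g, rfl⟩ := QuotientGroup.mk_surjective y
    obtain ⟨g₁, g₂, h1, h2, rfl⟩ := (hy ▸ cl_spec g : InC P g (u * x)).factor
    obtain ⟨b, hb⟩ := QuotientGroup.mk_out_eq_mul P.B g₁
    refine ⟨(⟨(g₁ : G ⧸ P.B), cl_eq h1⟩,
      ⟨(((b : G)⁻¹ * g₂ : G) : G ⧸ P.B), cl_eq (h2.mul_left (inv_mem b.2))⟩), Subtype.ext ?_⟩
    show Quotient.out (g₁ : G ⧸ P.B) • (((b : G)⁻¹ * g₂ : G) : G ⧸ P.B) = _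
    rw [hb]
    show ((g₁ * b * ((b : G)⁻¹ * g₂) : G) : G ⧸ P.B) = _
    congr 1
    group

variable (P) in
/-- fixed cosets of `parK K` inside `parK J` -/
noncomputable def fix2 (J K : Set P.S) (g : G) : ℕ :=
  Nat.card {y : G ⧸ parK P K // (∃ m ∈ parK P J, (m : G ⧸ parK P K) = y) ∧ g • y = y}

theorem fix2_conj {J K : Set P.S} {m g : G} (hm : m ∈ parK P J) :
    fix2 P J K (m * g * m⁻¹) = fix2 P J K g := by
  refine Nat.card_congr ((MulAction.toPerm m⁻¹).subtypeEquiv fun y => and_congr ⟨?_, ?_⟩ ?_)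
  · rintro ⟨a, ha, rfl⟩; exact ⟨m⁻¹ * a, mul_mem (inv_mem hm) ha, rfl⟩
  · rintro ⟨a, ha, e⟩
    refine ⟨m * a, mul_mem hm ha, ?_⟩
    have := congrArg (m • ·) e
    simp only [MulAction.toPerm_apply, smul_inv_smul] at this
    exact this
  · simp only [MulAction.toPerm_apply, mul_smul]
    rw [eq_inv_smul_iff]

open scoped Classical in
theorem fix2_eq_sum [Fintype (Weyl P)] {J K : Set P.S} (hKJ : K ⊆ J) {b : G} (hb : b ∈ P.B) :
    fix2 P J K b =
      ∑ w ∈ Finset.univ.filter (fun w => w ∈ Wp (sref P) J ∧ RMin (sref P) K w), cfix P b w := by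
  have e : fix2 P J K b =
      Nat.card {x : G ⧸ P.B // (cl P x ∈ Wp (sref P) J ∧ RMin (sref P) K (cl P x)) ∧ b • x = x} := by
    refine (Nat.card_congr (Equiv.ofBijective
      (fun x : {x : G ⧸ P.B // (cl P x ∈ Wp (sref P) J ∧ RMin (sref P) K (cl P x)) ∧ b • x = x} =>
        (⟨proj P K x.1, ?_, by rw [← proj_smul, x.2.2]⟩ :
          {y : G ⧸ parK P K // (∃ m ∈ parK P J, (m : G ⧸ parK P K) = y) ∧ b • y = y})) ⟨?_, ?_⟩)).symm
    · obtain ⟨g, hg⟩ := QuotientGroup.mk_surjective x.1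
      refine ⟨g, mem_parK.2 ?_, by rw [← hg]; rfl⟩
      rw [hg]; exact x.2.1.1
    · rintro ⟨x, hx⟩ ⟨x', hx'⟩ e
      exact Subtype.ext (proj_inj hx.1.2 hx'.1.2 (congrArg Subtype.val e))
    · rintro ⟨y, ⟨m, hm, rfl⟩, hy⟩
      obtain ⟨x, hx, hxy⟩ := proj_surj (m : G ⧸ parK P K)
      refine ⟨⟨x, ⟨?_, hx⟩, proj_inj (by rwa [cl_smul hb]) hx (by rw [proj_smul, hxy, hy])⟩, Subtype.ext hxy⟩
      obtain ⟨g, rfl⟩ := QuotientGroup.mk_surjective x
      rw [proj_mk, QuotientGroup.eq] at hxy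
      refine mem_parK.1 ?_
      have := mul_mem hm (inv_mem (parK_mono hKJ hxy))
      rwa [mul_inv_rev, inv_inv, mul_inv_cancel_left] at this
  rw [e]
  haveI := Fintype.ofFinite (G ⧸ P.B)
  rw [Nat.card_eq_fintype_card, Fintype.card_subtype,
    Finset.card_eq_sum_card_fiberwise (f := cl P)
      (t := Finset.univ.filter (fun w => w ∈ Wp (sref P) J ∧ RMin (sref P) K w))]
  · refine Finset.sum_congr rfl fun w hw => ?_
    rw [cfix, Nat.card_eq_fintype_card, Fintype.card_subtype]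
    congr 1
    ext x
    simp only [Finset.mem_filter, Finset.mem_univ, true_and] at hw ⊢
    constructor
    · rintro ⟨⟨-, h2⟩, h3⟩; exact ⟨h3, h2⟩
    · rintro ⟨rfl, h2⟩; exact ⟨⟨hw, h2⟩, rfl⟩
  · intro x hx
    simp only [Finset.coe_filter, Finset.mem_univ, true_and, Set.mem_setOf_eq] at hx ⊢
    exact hx.1

end Count

end Cfsg.Lib.LieBN
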