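/-
Alternating sums of parabolic permutation characters in a split (B,N)-pair,
and Steinberg's count of elements of prime power order.
-/
import Mathlib.GroupTheory.Sylow
import Mathlib.Algebra.BigOperators.Ring.Finset
import Cfsg.Agent.Lib.LieBN.Cells

set_option autoImplicit false
set_option linter.unusedSectionVars false

namespace Cfsg.Lib.LieBN

variable {G : Type*} [Group G] {P : Cfsg.BNPair G}

/-- stabilizer of all chambers given by a standard Weyl subgroup -/
def fixN (P : Cfsg.BNPair G) (J : Set P.S) : Subgroup G :=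
  ⨅ n : P.N, ⨅ _ : wc P n ∈ Wp (sref P) J, MulAction.stabilizer G ((n : G) : G ⧸ P.B)

theorem mem_fixN {J : Set P.S} {g : G} :
    g ∈ fixN P J ↔ ∀ n : P.N, wc P n ∈ Wp (sref P) J → g • ((n : G) : G ⧸ P.B) = ((n : G) : G ⧸ P.B) := by
  simp [fixN, Subgroup.mem_iInf, MulAction.mem_stabilizer_iff]

theorem tor_fix {t : G} (ht : t ∈ P.B ⊓ P.N) (n : P.N) :
    t • ((n : G) : G ⧸ P.B) = ((n : G) : G ⧸ P.B) := by
  show ((t * n : G) : G ⧸ P.B) = _
  rw [QuotientGroup.eq]
  simpa [mul_assoc] using P.conj_mem _ (inv_mem n.2) _ (inv_mem ht)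

theorem tor_le_fixN (J : Set P.S) : P.B ⊓ P.N ≤ fixN P J := fun _ ht => mem_fixN.2 fun n _ => tor_fix ht n

theorem fixN_le_B (J : Set P.S) : fixN P J ≤ P.B := fun g hg => by
  have := mem_fixN.1 hg 1 (show wc P 1 ∈ _ from one_mem _)
  have h' : ((g * 1 : G) : G ⧸ P.B) = ((1 : G) : G ⧸ P.B) := this
  rw [QuotientGroup.eq] at h'
  simpa using h'

theorem fixN_conj {J : Set P.S} {n : P.N} (hn : wc P n ∈ Wp (sref P) J) {g : G} (hg : g ∈ fixN P J) :
    (n : G) * g * (n : G)⁻¹ ∈ fixN P J := by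
  rw [mem_fixN] at hg ⊢
  intro m hm
  have h1 := hg (n⁻¹ * m) (show (wc P n)⁻¹ * wc P m ∈ _ from mul_mem (inv_mem hn) hm)
  have e : ((((n⁻¹ * m : P.N) : G)) : G ⧸ P.B) = (n : G)⁻¹ • ((m : G) : G ⧸ P.B) := rfl
  rw [e] at h1
  rw [mul_smul, mul_smul, h1, smul_inv_smul]

/-- what is needed of a split (B,N)-pair -/
structure Split (P : Cfsg.BNPair G) (p : ℕ) (U : Subgroup G) : Prop where
  le : U ≤ P.B
  pgroup : IsPGroup p U
  max : ∀ Q : Subgroup G, IsPGroup p Q → U ≤ Q → Q = U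
  normal : ∀ b ∈ P.B, ∀ u ∈ U, b * u * b⁻¹ ∈ U
  decomp : ∀ b ∈ P.B, ∃ u ∈ U, ∃ t ∈ P.B ⊓ P.N, b = u * t
  disj : ∀ u ∈ U, u ∈ P.N → u = 1
  core : P.B.normalCore = ⊥
  rnorm : ∀ J : Set P.S, ∀ u ∈ U, ∀ r ∈ U, r ∈ fixN P J → u * r * u⁻¹ ∈ fixN P J

variable {p : ℕ} {U : Subgroup G}

namespace Split

theorem B_normalizes (h : Split P p U) {J : Set P.S} {b r : G} (hb : b ∈ P.B)
    (hr : r ∈ fixN P J ⊓ U) : b * r * b⁻¹ ∈ fixN P J ⊓ U := by
  refine ⟨?_, h.normal b hb r hr.2⟩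
  obtain ⟨u, hu, t, ht, rfl⟩ := h.decomp b hb
  have h1 : t * r * t⁻¹ ∈ fixN P J := by
    have h0 : wc P (⟨t, ht.2⟩ : P.N) ∈ Wp (sref P) J := by
      rw [(wc_eq_one_iff P).2 (show ((⟨t, ht.2⟩ : P.N) : G) ∈ P.B from ht.1)]
      exact one_mem _
    exact fixN_conj (n := ⟨t, ht.2⟩) h0 hr.1
  have h2 := h.rnorm J u hu (t * r * t⁻¹) (h.normal t ht.1 r hr.2) h1
  rwa [show u * t * r * (u * t)⁻¹ = u * (t * r * t⁻¹) * u⁻¹ by group]

theorem mem_U (h : Split P p U) [Fact p.Prime] {b : G} (hb : b ∈ P.B) (hp : ∃ k, orderOf b = p ^ k) :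
    b ∈ U := by
  obtain ⟨k, hk⟩ := hp
  have hz : IsPGroup p (Subgroup.zpowers b) := IsPGroup.of_card (n := k) (by rw [Nat.card_zpowers, hk])
  have hn : Subgroup.zpowers b ≤ Subgroup.normalizer (U : Set G) := by
    rw [Subgroup.zpowers_le, Subgroup.mem_normalizer_iff]
    intro u
    refine ⟨h.normal b hb u, fun hu => ?_⟩
    simpa [mul_assoc] using h.normal b⁻¹ (inv_mem hb) _ hu
  have := h.max _ (h.pgroup.to_sup_of_normal_left' hz hn) le_sup_left
  exact this ▸ Subgroup.mem_sup_right (Subgroup.mem_zpowers b)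

theorem pel_of_mem (h : Split P p U) [Fact p.Prime] {u : G} (hu : u ∈ U) : ∃ k, orderOf u = p ^ k := by
  obtain ⟨k, hk⟩ := IsPGroup.iff_orderOf.1 h.pgroup ⟨u, hu⟩
  exact ⟨k, by rwa [Subgroup.orderOf_mk] at hk⟩

theorem parK_normalizes (h : Split P p U) [Fact p.Prime] {J : Set P.S} {m r : G} (hm : m ∈ parK P J)
    (hr : r ∈ fixN P J ⊓ U) : m * r * m⁻¹ ∈ fixN P J ⊓ U := by
  suffices parK P J ≤ Subgroup.normalizer ((fixN P J ⊓ U : Subgroup G) : Set G) from (Subgroup.mem_normalizer_iff.1 (this hm) r).1 hr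
  refine sup_le (fun b hb => ?_) ((Subgroup.closure_le _).2 ?_)
  · rw [Subgroup.mem_normalizer_iff]
    exact fun x => ⟨h.B_normalizes hb, fun hx => by simpa [mul_assoc] using h.B_normalizes (inv_mem hb) hx⟩
  · rintro _ ⟨s, hs, rfl⟩
    rw [SetLike.mem_coe, Subgroup.mem_normalizer_iff]
    have key : ∀ n : P.N, wc P n ∈ Wp (sref P) J → ∀ x ∈ fixN P J ⊓ U,
        (n : G) * x * (n : G)⁻¹ ∈ fixN P J ⊓ U := by
      intro n hn x hx
      have h1 := fixN_conj hn hx.1
      refine ⟨h1, h.mem_U (fixN_le_B J h1) ?_⟩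
      rw [← MulAut.conj_apply, MulEquiv.orderOf_eq]
      exact h.pel_of_mem hx.2
    intro x
    refine ⟨key ⟨s, P.subset s.2⟩ (sigma_mem_Wp hs) x, fun hx => ?_⟩
    have := key ⟨s, P.subset s.2⟩⁻¹ (show (sref P s)⁻¹ ∈ _ from inv_mem (sigma_mem_Wp hs)) _ hx
    simpa [mul_assoc] using this

theorem exists_conj (h : Split P p U) [Fact p.Prime] [Finite G] {J : Set P.S} {g : G} (hg : g ∈ parK P J)
    (hp : ∃ k, orderOf g = p ^ k) : ∃ m ∈ parK P J, ∃ u ∈ U, g = m * u * m⁻¹ := by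
  have hUJ : U ≤ parK P J := h.le.trans (B_le_parK J)
  let S : Sylow p (parK P J) :=
    { toSubgroup := U.subgroupOf (parK P J)
      isPGroup' := h.pgroup.of_equiv (Subgroup.subgroupOfEquivOfLe hUJ).symm
      is_maximal' := fun {Q} hQ hle => by
        have h1 := h.max (Q.map (parK P J).subtype) (hQ.map _) (by
          intro u hu
          exact ⟨⟨u, hUJ hu⟩, hle (Subgroup.mem_subgroupOf.2 hu), rfl⟩)
        ext x
        rw [Subgroup.mem_subgroupOf, ← h1]
        exact ⟨fun hx => ⟨x, hx, rfl⟩, fun ⟨y, hy, e⟩ => Subtype.ext e ▸ hy⟩ }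
  obtain ⟨k, hk⟩ := hp
  have hz : IsPGroup p (Subgroup.zpowers (⟨g, hg⟩ : parK P J)) :=
    IsPGroup.of_card (n := k) (by rw [Nat.card_zpowers, Subgroup.orderOf_mk, hk])
  obtain ⟨Q, hQ⟩ := hz.exists_le_sylow
  obtain ⟨m, hm⟩ := MulAction.exists_smul_eq (parK P J) S Q
  have hmem : (⟨g, hg⟩ : parK P J) ∈ ((m • S : Sylow p (parK P J)) : Subgroup (parK P J)) := by
    rw [hm]; exact hQ (Subgroup.mem_zpowers _)
  rw [Sylow.coe_subgroup_smul, Subgroup.mem_pointwise_smul_iff_inv_smul_mem] at hmem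
  refine ⟨m, m.2, (m : G)⁻¹ * g * m, ?_, by group⟩
  simpa [S, Subgroup.mem_subgroupOf, MulAut.smul_def] using hmem

end Split

section Count

open scoped Classical

variable [Finite G]

/-- the longest element of a standard Weyl subgroup -/
noncomputable def long (P : Cfsg.BNPair G) (J : Set P.S) : Weyl P := ((exch (P := P)).exists_dmax J).choose

theorem long_mem (J : Set P.S) : long P J ∈ Wp (sref P) J :=
  ((exch (P := P)).exists_dmax J).choose_spec.1

theorem long_dmax (J : Set P.S) : DMax (sref P) J (long P J) :=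
  ((exch (P := P)).exists_dmax J).choose_spec.2

theorem long_eq {J : Set P.S} {w : Weyl P} (hw : w ∈ Wp (sref P) J) (h : DMax (sref P) J w) :
    w = long P J :=
  (exch (P := P)).dmax_unique hw (long_mem J) h (long_dmax J)

theorem long_add {J : Set P.S} {v : Weyl P} (hv : v ∈ Wp (sref P) J) :
    wlen (sref P) (v * (v⁻¹ * long P J)) = wlen (sref P) v + wlen (sref P) (v⁻¹ * long P J) := by
  have h1 := (exch (P := P)).dmax_sub (long_dmax J) _ (mul_mem (inv_mem hv) (long_mem J))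
  rw [show long P J * (v⁻¹ * long P J)⁻¹ = v by group] at h1
  rw [mul_inv_cancel_left, h1]

theorem rmin_eq_one {J : Set P.S} {v : Weyl P} (hv : v ∈ Wp (sref P) J) (h : RMin (sref P) J v) : v = 1 := by
  have h1 : RMin (sref P) J (1 : Weyl P) := fun i _ => by
    rw [(invGen P).wlen_eq_zero.2 rfl, one_mul]
    rcases Nat.eq_zero_or_pos (wlen (sref P) (sref P i)) with h0 | h0
    · exact absurd ((invGen P).wlen_eq_zero.1 h0) (sref_ne_one i)
    · exact h0
  exact ((exch (P := P)).rmin_unique h h1 (one_mem _) hv (by rw [mul_one, one_mul])).1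

variable [Fintype P.S]

/-- alternating sum of the fixed points on the coset spaces of a parabolic subgroup -/
noncomputable def stJ (P : Cfsg.BNPair G) [Fintype P.S] (J : Finset P.S) (g : G) : ℤ :=
  ∑ K ∈ J.powerset, (-1) ^ K.card * (fix2 P (J : Set P.S) (K : Set P.S) g : ℤ)

/-- alternating sum over the subsets satisfying a pointwise condition -/
theorem sum_alt (J : Finset P.S) (q : P.S → Prop) [DecidablePred q] :
    (∑ K ∈ J.powerset, if ∀ i ∈ K, q i then ((-1) ^ K.card : ℤ) else 0) =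
      if ∀ i ∈ J, ¬ q i then 1 else 0 := by
  rw [← Finset.sum_filter,
    show J.powerset.filter (fun K => ∀ i ∈ K, q i) = (J.filter q).powerset by
      ext K
      simp only [Finset.mem_filter, Finset.mem_powerset]
      exact ⟨fun h i hi => Finset.mem_filter.2 ⟨h.1 hi, h.2 i hi⟩,
        fun h => ⟨h.trans (Finset.filter_subset _ _), fun i hi => (Finset.mem_filter.1 (h hi)).2⟩⟩,
    Finset.sum_powerset_neg_one_pow_card]
  exact if_congr Finset.filter_eq_empty_iff rfl rfl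

theorem stJ_eq_cfix (J : Finset P.S) {b : G} (hb : b ∈ P.B) :
    stJ P J b = (cfix P b (long P (J : Set P.S)) : ℤ) := by
  haveI := Fintype.ofFinite (Weyl P)
  have e : stJ P J b = ∑ w : Weyl P, (if w ∈ Wp (sref P) (J : Set P.S) then
      (∑ K ∈ J.powerset, if ∀ i ∈ K, wlen (sref P) w < wlen (sref P) (w * sref P i)
        then ((-1) ^ K.card : ℤ) else 0) else 0) * (cfix P b w : ℤ) := by
    rw [stJ, Finset.sum_congr rfl fun K hK => by
      rw [fix2_eq_sum (Finset.coe_subset.2 (Finset.mem_powerset.1 hK)) hb, Nat.cast_sum, Finset.sum_filter,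
        Finset.mul_sum], Finset.sum_comm]
    refine Finset.sum_congr rfl fun w _ => ?_
    by_cases hw : w ∈ Wp (sref P) (J : Set P.S)
    · rw [if_pos hw, Finset.sum_mul]
      refine Finset.sum_congr rfl fun K _ => ?_
      simp [hw, RMin, ite_mul, mul_ite]
    · simp [hw]
  rw [e, Finset.sum_eq_single (long P (J : Set P.S))]
  · rw [if_pos (long_mem _), sum_alt, if_pos, one_mul]
    exact fun i hi => not_lt.2 (long_dmax (J : Set P.S) i (Finset.mem_coe.2 hi)).le
  · intro w _ hne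
    by_cases hw : w ∈ Wp (sref P) (J : Set P.S)
    · rw [if_pos hw, sum_alt, if_neg, zero_mul]
      intro hall
      refine hne (long_eq hw fun i hi => ?_)
      exact lt_of_le_of_ne (not_lt.1 (hall i (Finset.mem_coe.1 hi))) ((exch (P := P)).len_ne_right w i)
    · rw [if_neg hw, zero_mul]
  · exact fun h => absurd (Finset.mem_univ _) h

theorem stJ_conj (J : Finset P.S) {m g : G} (hm : m ∈ parK P (J : Set P.S)) :
    stJ P J (m * g * m⁻¹) = stJ P J g :=
  Finset.sum_congr rfl fun _ _ => by rw [fix2_conj hm]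

/-- an element of `B` fixing the longest chamber of a parabolic fixes all of its chambers -/
theorem mem_fixN_of_long {J : Set P.S} {g : G} {n₀ : P.N} (hn₀ : wc P n₀ = long P J) (hg : g ∈ P.B)
    (h : g • ((n₀ : G) : G ⧸ P.B) = ((n₀ : G) : G ⧸ P.B)) : g ∈ fixN P J := by
  rw [mem_fixN]
  intro m hm
  have hx : InC P ((m : G)⁻¹ * n₀) ((wc P m)⁻¹ * long P J) := by
    rw [← hn₀]; exact InC.mk (m⁻¹ * n₀)
  show ((g * m : G) : G ⧸ P.B) = _
  refine pred_unique (long_add hm) ((InC.mk m).mul_left hg) (InC.mk m) hx hx ?_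
  rw [mul_assoc, mul_inv_cancel_left]
  exact h

theorem exists_smul_eq {n : P.N} {x : G ⧸ P.B} (hx : cl P x = wc P n) :
    ∃ b ∈ P.B, b • ((n : G) : G ⧸ P.B) = x := by
  obtain ⟨g, rfl⟩ := QuotientGroup.mk_surjective x
  obtain ⟨b₁, h1, b₂, h2, rfl⟩ := InC.iff_rep.1 (hx ▸ cl_spec g)
  refine ⟨b₁, h1, ?_⟩
  show ((b₁ * n : G) : G ⧸ P.B) = _
  rw [QuotientGroup.eq, inv_mul_cancel_left]
  exact h2

namespace Split

theorem mem_fixN_of_cfix (h : Split P p U) {J : Set P.S} {u : G} (hu : u ∈ U)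
    (hc : cfix P u (long P J) ≠ 0) : u ∈ fixN P J := by
  rw [cfix] at hc
  obtain ⟨⟨x, hx, hfix⟩⟩ := (Nat.card_ne_zero.1 hc).1
  obtain ⟨n₀, hn₀⟩ := QuotientGroup.mk_surjective (long P J)
  obtain ⟨b, hb, rfl⟩ := exists_smul_eq (n := n₀) (hx.trans hn₀.symm)
  have hU : b⁻¹ * u * b ∈ U := by simpa using h.normal b⁻¹ (inv_mem hb) u hu
  have h1 : b⁻¹ * u * b ∈ fixN P J :=
    mem_fixN_of_long hn₀ (h.le hU) (by rw [mul_smul, mul_smul, hfix, inv_smul_smul])
  have := h.B_normalizes hb (Subgroup.mem_inf.2 ⟨h1, hU⟩)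
  rw [show b * (b⁻¹ * u * b) * b⁻¹ = u by group] at this
  exact this.1

theorem cfix_of_mem (h : Split P p U) [Fact p.Prime] {J : Set P.S} {r : G} (hr : r ∈ fixN P J ⊓ U) :
    cfix P r (long P J) = ncell P (long P J) := by
  refine Nat.card_congr (Equiv.subtypeEquivRight fun x => ⟨fun hx => hx.1, fun hx => ⟨hx, ?_⟩⟩)
  obtain ⟨g, rfl⟩ := QuotientGroup.mk_surjective x
  have hg : g ∈ parK P J := mem_parK.2 (hx ▸ long_mem J)
  have h1 := h.parK_normalizes (inv_mem hg) hr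
  show ((r * g : G) : G ⧸ P.B) = _
  rw [QuotientGroup.eq]
  simpa [mul_assoc] using inv_mem (h.le h1.2)

theorem card_cell (h : Split P p U) (J : Set P.S) :
    ncell P (long P J) * Nat.card ↥(fixN P J ⊓ U) = Nat.card U := by
  obtain ⟨n₀, hn₀⟩ := QuotientGroup.mk_surjective (long P J)
  have ho : ∀ x : G ⧸ P.B, x ∈ MulAction.orbit U ((n₀ : G) : G ⧸ P.B) ↔ cl P x = long P J := by
    intro x
    constructor
    · rintro ⟨⟨u, hu⟩, rfl⟩
      show cl P (u • ((n₀ : G) : G ⧸ P.B)) = _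
      rw [cl_smul (h.le hu), cl_eq (InC.mk n₀)]
      exact hn₀
    · intro hx
      obtain ⟨b, hb, rfl⟩ := exists_smul_eq (n := n₀) (hx.trans hn₀.symm)
      obtain ⟨u, hu, t, ht, rfl⟩ := h.decomp b hb
      refine ⟨⟨u, hu⟩, ?_⟩
      show u • ((n₀ : G) : G ⧸ P.B) = _
      rw [mul_smul, tor_fix ht]
  have hs : MulAction.stabilizer U ((n₀ : G) : G ⧸ P.B) = (fixN P J ⊓ U).subgroupOf U := by
    ext ⟨u, hu⟩
    rw [MulAction.mem_stabilizer_iff, Subgroup.mem_subgroupOf]
    exact ⟨fun e => ⟨mem_fixN_of_long hn₀ (h.le hu) e, hu⟩,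
      fun e => mem_fixN.1 e.1 n₀ (by show wc P n₀ ∈ _; rw [show wc P n₀ = long P J from hn₀]; exact long_mem J)⟩
  rw [← Nat.card_congr (Subgroup.subgroupOfEquivOfLe (inf_le_right : fixN P J ⊓ U ≤ U)).toEquiv, ← hs, ncell,
    ← Nat.card_congr (Equiv.subtypeEquivRight ho),
    Nat.card_congr (MulAction.orbitEquivQuotientStabilizer U ((n₀ : G) : G ⧸ P.B)),
    ← Subgroup.card_eq_card_quotient_mul_card_subgroup]

end Split

/-- elements of `p`-power order in a parabolic subgroup -/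
noncomputable def pel (P : Cfsg.BNPair G) [Fintype G] (p : ℕ) (J : Set P.S) : Finset G :=
  Finset.univ.filter fun g => g ∈ parK P J ∧ ∃ k, orderOf g = p ^ k

variable [Fintype G]

theorem Split.sum_stJ (h : Split P p U) [Fact p.Prime] (J : Finset P.S) :
    ∑ g ∈ pel P p (J : Set P.S), stJ P J g = (Nat.card U : ℤ) := by
  have hv : ∀ g ∈ pel P p (J : Set P.S), stJ P J g =
      if g ∈ fixN P (J : Set P.S) ⊓ U then (ncell P (long P (J : Set P.S)) : ℤ) else 0 := by
    intro g hg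
    obtain ⟨hgJ, hp⟩ := (Finset.mem_filter.1 hg).2
    split_ifs with hR
    · rw [stJ_eq_cfix J (fixN_le_B _ hR.1), h.cfix_of_mem hR]
    · obtain ⟨m, hm, u, hu, rfl⟩ := h.exists_conj hgJ hp
      rw [stJ_conj J hm, stJ_eq_cfix J (h.le hu), Nat.cast_eq_zero]
      by_contra hc
      exact hR (h.parK_normalizes hm ⟨h.mem_fixN_of_cfix hu hc, hu⟩)
  rw [Finset.sum_congr rfl hv, ← Finset.sum_filter, Finset.sum_const, nsmul_eq_mul,
    show (pel P p (J : Set P.S)).filter (fun g => g ∈ fixN P (J : Set P.S) ⊓ U) =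
      Finset.univ.filter (fun g => g ∈ fixN P (J : Set P.S) ⊓ U) by
      ext g
      simp only [pel, Finset.mem_filter, Finset.mem_univ, true_and]
      exact ⟨fun h' => h'.2, fun h' => ⟨⟨B_le_parK _ (fixN_le_B _ h'.1), h.pel_of_mem h'.2⟩, h'⟩⟩,
    ← h.card_cell (J : Set P.S), ← Fintype.card_subtype, ← Nat.card_eq_fintype_card, Nat.cast_mul, mul_comm]

theorem sum_fix2 {J K : Set P.S} (hKJ : K ⊆ J) :
    ∑ g ∈ pel P p J, fix2 P J K g = fix2 P J K 1 * (pel P p K).card := by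
  haveI := Fintype.ofFinite (G ⧸ parK P K)
  set Y : Finset (G ⧸ parK P K) :=
    Finset.univ.filter fun y => ∃ m ∈ parK P J, (m : G ⧸ parK P K) = y with hY
  have hf : ∀ g, fix2 P J K g = (Y.filter fun y => g • y = y).card := by
    intro g
    rw [fix2, Nat.card_eq_fintype_card, Fintype.card_subtype, hY, Finset.filter_filter]
  have h1 : fix2 P J K 1 = Y.card := by
    rw [hf, Finset.filter_true_of_mem fun y _ => one_smul G y]
  simp only [hf, Finset.card_filter] at h1 ⊢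
  rw [Finset.sum_comm]
  have h2 : ∀ y ∈ Y, (∑ g ∈ pel P p J, if g • y = y then 1 else 0) = (pel P p K).card := by
    intro y hy
    obtain ⟨m, hm, rfl⟩ := (Finset.mem_filter.1 hy).2
    rw [← Finset.card_filter]
    refine Finset.card_nbij' (fun g => m⁻¹ * g * m) (fun k => m * k * m⁻¹) ?_ ?_
      (fun g _ => by group) (fun g _ => by group)
    · intro g hg
      simp only [pel, Finset.coe_filter, Finset.mem_filter, Finset.mem_univ, true_and, Set.mem_setOf_eq] at hg ⊢
      obtain ⟨⟨-, k, hk⟩, hfix⟩ := hg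
      have e : ((g * m : G) : G ⧸ parK P K) = (m : G ⧸ parK P K) := hfix
      rw [QuotientGroup.eq] at e
      refine ⟨by simpa [mul_assoc] using inv_mem e, k, ?_⟩
      rw [← hk]
      convert orderOf_injective (MulAut.conj m⁻¹).toMonoidHom (MulEquiv.injective _) g using 2
      simp
    · intro k hk
      simp only [pel, Finset.coe_filter, Finset.mem_filter, Finset.mem_univ, true_and, Set.mem_setOf_eq] at hk ⊢
      obtain ⟨hkK, e, he⟩ := hk
      refine ⟨⟨mul_mem (mul_mem hm (parK_mono hKJ hkK)) (inv_mem hm), e, ?_⟩, ?_⟩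
      · rw [← MulAut.conj_apply, ← he]
        exact orderOf_injective (MulAut.conj m).toMonoidHom (MulEquiv.injective _) k
      · show ((m * k * m⁻¹ * m : G) : G ⧸ parK P K) = _
        rw [QuotientGroup.eq]
        simpa [mul_assoc] using hkK
  rw [Finset.sum_congr rfl h2, Finset.sum_const, smul_eq_mul]
  congr 1
  rw [h1]

theorem fix2_long {J K : Set P.S} (hKJ : K ⊆ J) [Fintype (Weyl P)] :
    fix2 P J K 1 * ncell P (long P K) =
      ∑ v ∈ Finset.univ.filter (fun v => v ∈ Wp (sref P) J ∧ DMax (sref P) K v), ncell P v := by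
  rw [fix2_eq_sum hKJ (one_mem _), Finset.sum_mul]
  refine Finset.sum_bij' (fun w _ => w * long P K) (fun v _ => v * (long P K)⁻¹) ?_ ?_
    (fun w _ => by simp) (fun v _ => by simp) ?_
  · intro w hw
    simp only [Finset.mem_filter, Finset.mem_univ, true_and] at hw ⊢
    exact ⟨mul_mem hw.1 (Wp_mono hKJ (long_mem K)),
      ((exch (P := P)).dmax_mul_iff hw.2 (long_mem K)).2 (long_dmax K)⟩
  · intro v hv
    simp only [Finset.mem_filter, Finset.mem_univ, true_and] at hv ⊢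
    refine ⟨mul_mem hv.1 (inv_mem (Wp_mono hKJ (long_mem K))), ?_⟩
    obtain ⟨u, x, hx, hu, rfl⟩ := (exch (P := P)).exists_rmin K v
    have hxl := long_eq hx (((exch (P := P)).dmax_mul_iff hu hx).1 hv.2)
    rw [hxl, mul_inv_cancel_right]
    exact hu
  · intro w hw
    simp only [Finset.mem_filter, Finset.mem_univ, true_and] at hw
    rw [cfix_one, ncell_mul ((exch (P := P)).rmin_add hw.2 (long_mem K))]

theorem sum_long (J : Finset P.S) :
    ∑ K ∈ J.powerset, ((-1) ^ K.card : ℤ) * ((fix2 P (J : Set P.S) (K : Set P.S) 1 : ℤ) *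
      (ncell P (long P (K : Set P.S)) : ℤ)) = 1 := by
  haveI := Fintype.ofFinite (Weyl P)
  have e : ∑ K ∈ J.powerset, ((-1) ^ K.card : ℤ) * ((fix2 P (J : Set P.S) (K : Set P.S) 1 : ℤ) *
      (ncell P (long P (K : Set P.S)) : ℤ)) = ∑ v : Weyl P, (if v ∈ Wp (sref P) (J : Set P.S) then
      (∑ K ∈ J.powerset, if ∀ i ∈ K, wlen (sref P) (v * sref P i) < wlen (sref P) v
        then ((-1) ^ K.card : ℤ) else 0) else 0) * (ncell P v : ℤ) := by
    rw [Finset.sum_congr rfl fun K hK => by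
      rw [← Nat.cast_mul, fix2_long (Finset.coe_subset.2 (Finset.mem_powerset.1 hK)), Nat.cast_sum,
        Finset.sum_filter, Finset.mul_sum], Finset.sum_comm]
    refine Finset.sum_congr rfl fun v _ => ?_
    by_cases hv : v ∈ Wp (sref P) (J : Set P.S)
    · rw [if_pos hv, Finset.sum_mul]
      refine Finset.sum_congr rfl fun K _ => ?_
      simp [hv, DMax, ite_mul, mul_ite]
    · simp [hv]
  rw [e, Finset.sum_eq_single 1]
  · rw [if_pos (one_mem _), sum_alt, if_pos, one_mul, ncell_one, Nat.cast_one]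
    intro i _
    rw [(invGen P).wlen_eq_zero.2 rfl]
    exact Nat.not_lt_zero _
  · intro v _ hne
    by_cases hv : v ∈ Wp (sref P) (J : Set P.S)
    · rw [if_pos hv, sum_alt, if_neg, zero_mul]
      intro hall
      refine hne (rmin_eq_one hv fun i hi => ?_)
      exact lt_of_le_of_ne (not_lt.1 (hall i (Finset.mem_coe.1 hi))) ((exch (P := P)).len_ne_right v i).symm
    · rw [if_neg hv, zero_mul]
  · exact fun h => absurd (Finset.mem_univ _) h

theorem fix2_self (J : Set P.S) : fix2 P J J 1 = 1 := by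
  rw [fix2, Nat.card_eq_one_iff_unique]
  refine ⟨⟨fun a b => Subtype.ext ?_⟩, ⟨⟨((1 : G) : G ⧸ parK P J), ⟨1, one_mem _, rfl⟩, one_smul _ _⟩⟩⟩
  obtain ⟨⟨x, hx, hx'⟩, -⟩ := a.2
  obtain ⟨⟨y, hy, hy'⟩, -⟩ := b.2
  rw [← hx', ← hy', QuotientGroup.eq]
  exact mul_mem (inv_mem hx) hy

theorem Split.card_pel (h : Split P p U) [Fact p.Prime] (J : Finset P.S) :
    ((pel P p (J : Set P.S)).card : ℤ) = (Nat.card U : ℤ) * (ncell P (long P (J : Set P.S)) : ℤ) := by
  induction J using Finset.strongInductionOn with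
  | _ J ih =>
    have h1 : ∑ K ∈ J.powerset, ((-1) ^ K.card : ℤ) * ((fix2 P (J : Set P.S) (K : Set P.S) 1 : ℤ) *
        ((pel P p (K : Set P.S)).card : ℤ)) = (Nat.card U : ℤ) := by
      refine Eq.trans ?_ (h.sum_stJ J)
      unfold stJ
      rw [Finset.sum_comm]
      refine Finset.sum_congr rfl fun K hK => ?_
      rw [← Finset.mul_sum, ← Nat.cast_sum, sum_fix2 (Finset.coe_subset.2 (Finset.mem_powerset.1 hK)),
        Nat.cast_mul]
    have h2 : ∑ K ∈ J.powerset, ((-1) ^ K.card : ℤ) * ((fix2 P (J : Set P.S) (K : Set P.S) 1 : ℤ) *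
        ((Nat.card U : ℤ) * (ncell P (long P (K : Set P.S)) : ℤ))) = (Nat.card U : ℤ) := by
      refine Eq.trans ?_ (by rw [sum_long J, mul_one] : (Nat.card U : ℤ) * ∑ K ∈ J.powerset,
        ((-1) ^ K.card : ℤ) * ((fix2 P (J : Set P.S) (K : Set P.S) 1 : ℤ) *
          (ncell P (long P (K : Set P.S)) : ℤ)) = _)
      rw [Finset.mul_sum]
      exact Finset.sum_congr rfl fun K _ => by ring
    have hJ : J ∈ J.powerset := Finset.mem_powerset.2 (Finset.Subset.refl J)
    rw [← Finset.add_sum_erase _ _ hJ] at h1 h2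
    rw [Finset.sum_congr rfl fun K hK => by
      rw [ih K (lt_of_le_of_ne (Finset.mem_powerset.1 (Finset.mem_of_mem_erase hK)) (Finset.ne_of_mem_erase hK))]] at h1
    have h4 := add_right_cancel (h1.trans h2.symm)
    rw [fix2_self, Nat.cast_one, one_mul, one_mul] at h4
    exact mul_left_cancel₀ (pow_ne_zero _ (by norm_num)) h4

end Count

end Cfsg.Lib.LieBN
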