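/-
The Steinberg character of a split (B,N)-pair: degree, restriction to `B`, irreducibility,
vanishing on `p`-singular elements, and the number of `p`-elements.
-/
import Mathlib.GroupTheory.GroupAction.Quotient
import Cfsg.Agent.Lib.LieBN.Steinberg
import Cfsg.Agent.Lib.Characters.QuasiElementary
import Cfsg.Agent.Lib.Blocks.DefectZero
import Cfsg.Agent.Lib.Blocks.Exists

set_option autoImplicit false
set_option linter.unusedSectionVars false

namespace Cfsg.Lib.LieBN

open scoped Classical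

variable {G : Type*} [Group G] {P : Cfsg.BNPair G} {p : ℕ} {U : Subgroup G}
variable [Fintype G] [Fintype P.S]

/-- the alternating sum over all standard parabolic subgroups -/
noncomputable def stSum (P : Cfsg.BNPair G) [Fintype P.S] (g : G) : ℤ :=
  ∑ K : Finset P.S, (-1) ^ K.card * (Nat.card (MulAction.fixedBy (G ⧸ parK P (K : Set P.S)) g) : ℤ)

theorem stSum_eq (g : G) : stSum P g = stJ P (Finset.univ : Finset P.S) g := by
  rw [stSum, stJ, Finset.powerset_univ]
  refine Finset.sum_congr rfl fun K _ => ?_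
  congr 2
  refine Nat.card_congr (Equiv.subtypeEquivRight fun y => ?_)
  obtain ⟨m, rfl⟩ := QuotientGroup.mk_surjective y
  exact ⟨fun h => ⟨⟨m, by rw [Finset.coe_univ, parK_univ]; exact Subgroup.mem_top _, rfl⟩, h⟩, fun h => h.2⟩

namespace Split

theorem fixN_univ_inf (h : Split P p U) [Fact p.Prime] :
    fixN P ((Finset.univ : Finset P.S) : Set P.S) ⊓ U = ⊥ := by
  refine (Subgroup.eq_bot_iff_forall _).2 fun r hr => ?_
  have hn : r ∈ P.B.normalCore := fun g =>
    h.le (h.parK_normalizes (show g ∈ parK P ((Finset.univ : Finset P.S) : Set P.S) by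
      rw [Finset.coe_univ, parK_univ]; exact Subgroup.mem_top _) hr).2
  rwa [h.core, Subgroup.mem_bot] at hn

theorem ncell_univ (h : Split P p U) [Fact p.Prime] :
    ncell P (long P ((Finset.univ : Finset P.S) : Set P.S)) = Nat.card U := by
  have := h.card_cell ((Finset.univ : Finset P.S) : Set P.S)
  rwa [h.fixN_univ_inf, Subgroup.card_bot, mul_one] at this

theorem stSum_one (h : Split P p U) [Fact p.Prime] : stSum P (1 : G) = (Nat.card U : ℤ) := by
  rw [stSum_eq, stJ_eq_cfix _ (one_mem _), cfix_one, h.ncell_univ]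

theorem card_pelements (h : Split P p U) [Fact p.Prime] :
    Nat.card {g : G // ∃ k : ℕ, orderOf g = p ^ k} = Nat.card U ^ 2 := by
  have h1 := h.card_pel (Finset.univ : Finset P.S)
  rw [h.ncell_univ, ← Nat.cast_mul, Nat.cast_inj] at h1
  rw [sq, ← h1, Nat.card_eq_fintype_card, Fintype.card_subtype]
  congr 1
  ext g
  simp [pel, parK_univ]

theorem stSum_borel (h : Split P p U) [Fact p.Prime] (b : P.B) :
    stSum P (b : G) = (Nat.card (MulAction.fixedBy (P.B ⧸ (P.B ⊓ P.N).subgroupOf P.B) b) : ℤ) := by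
  set J : Set P.S := ((Finset.univ : Finset P.S) : Set P.S) with hJ
  obtain ⟨n₀, hn₀⟩ := QuotientGroup.mk_surjective (long P J)
  have hst : ∀ c : P.B, c ∈ (P.B ⊓ P.N).subgroupOf P.B ↔
      (c : G) • ((n₀ : G) : G ⧸ P.B) = ((n₀ : G) : G ⧸ P.B) := by
    intro c
    rw [Subgroup.mem_subgroupOf]
    refine ⟨fun hc => tor_fix hc n₀, fun hc => ?_⟩
    obtain ⟨u, hu, t, ht, e⟩ := h.decomp c c.2
    rw [e, mul_smul, tor_fix ht] at hc
    have hu1 := (Subgroup.eq_bot_iff_forall _).1 h.fixN_univ_inf u ⟨mem_fixN_of_long hn₀ (h.le hu) hc, hu⟩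
    rw [e, hu1, one_mul]
    exact ht
  let f : P.B ⧸ (P.B ⊓ P.N).subgroupOf P.B → G ⧸ P.B := fun q =>
    Quotient.liftOn' q (fun c : P.B => (c : G) • ((n₀ : G) : G ⧸ P.B)) fun a c hac => by
      rw [QuotientGroup.leftRel_apply, hst] at hac
      show (a : G) • ((n₀ : G) : G ⧸ P.B) = (c : G) • ((n₀ : G) : G ⧸ P.B)
      rw [Subgroup.coe_mul, Subgroup.coe_inv, mul_smul, inv_smul_eq_iff] at hac
      exact hac.symm
  have hf : Function.Injective f := by
    intro q q'
    obtain ⟨a, rfl⟩ := QuotientGroup.mk_surjective q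
    obtain ⟨c, rfl⟩ := QuotientGroup.mk_surjective q'
    intro e
    rw [QuotientGroup.eq, hst, Subgroup.coe_mul, Subgroup.coe_inv, mul_smul, inv_smul_eq_iff]
    exact (show (a : G) • ((n₀ : G) : G ⧸ P.B) = (c : G) • ((n₀ : G) : G ⧸ P.B) from e).symm
  have he : ∀ q, f (b • q) = (b : G) • f q := by
    intro q
    obtain ⟨a, rfl⟩ := QuotientGroup.mk_surjective q
    show ((b : G) * (a : G)) • ((n₀ : G) : G ⧸ P.B) = _
    rw [mul_smul]
    rfl
  rw [stSum_eq, stJ_eq_cfix _ b.2, cfix, Nat.cast_inj]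
  refine (Nat.card_congr (Equiv.ofBijective
    (fun q : MulAction.fixedBy (P.B ⧸ (P.B ⊓ P.N).subgroupOf P.B) b =>
      (⟨f q.1, ?_, by rw [← he, q.2]⟩ : {x : G ⧸ P.B // cl P x = long P J ∧ (b : G) • x = x})) ⟨?_, ?_⟩)).symm
  · obtain ⟨a, ha⟩ := QuotientGroup.mk_surjective q.1
    rw [← ha]
    show cl P ((a : G) • ((n₀ : G) : G ⧸ P.B)) = _
    rw [cl_smul a.2, cl_eq (InC.mk n₀)]
    exact hn₀
  · intro q q' e
    exact Subtype.ext (hf (congrArg Subtype.val e))
  · rintro ⟨x, hx, hfix⟩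
    obtain ⟨c, hc, rfl⟩ := exists_smul_eq (n := n₀) (hx.trans hn₀.symm)
    refine ⟨⟨((⟨c, hc⟩ : P.B) : P.B ⧸ _), ?_⟩, rfl⟩
    refine hf ?_
    rw [he]
    exact hfix

end Split

theorem mem_Wp_univ (w : Weyl P) : w ∈ Wp (sref P) (Set.univ : Set P.S) := by
  obtain ⟨L, -, rfl⟩ := (invGen P).exists_reduced w
  exact wprod_mem_Wp fun i _ => Set.mem_univ i

/-- orbits on a product of two parabolic coset spaces -/
theorem card_orbits (J K : Set P.S) :
    Nat.card (Quotient (MulAction.orbitRel G ((G ⧸ parK P J) × (G ⧸ parK P K)))) =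
      Nat.card {w : Weyl P // DMin (sref P) J K w} := by
  have hrep : ∀ w : Weyl P, ∃ n : P.N, wc P n = w := fun w => QuotientGroup.mk_surjective w
  choose n hn using hrep
  refine (Nat.card_congr (Equiv.ofBijective (fun w : {w : Weyl P // DMin (sref P) J K w} =>
    (Quotient.mk'' (((1 : G) : G ⧸ parK P J), ((n w.1 : G) : G ⧸ parK P K)) :
      Quotient (MulAction.orbitRel G ((G ⧸ parK P J) × (G ⧸ parK P K))))) ⟨?_, ?_⟩)).symm
  · rintro ⟨v, hv⟩ ⟨w, hw⟩ e
    obtain ⟨g, hg⟩ := Quotient.eq''.1 e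
    have h1 : ((g * 1 : G) : G ⧸ parK P J) = ((1 : G) : G ⧸ parK P J) := congrArg Prod.fst hg
    have h2 : ((g * n w : G) : G ⧸ parK P K) = ((n v : G) : G ⧸ parK P K) := congrArg Prod.snd hg
    rw [QuotientGroup.eq] at h1 h2
    have hgJ : g ∈ parK P J := by simpa using h1
    obtain ⟨a, ha, r1⟩ := InC.mul_parK hgJ (hn w ▸ InC.mk (n w))
    obtain ⟨b, hb, r2⟩ := InC.mul_parK_right r1 h2
    rw [mul_inv_cancel_left] at r2
    have hv' := InC.mk (n v)
    rw [hn v] at hv'
    have e' := hv'.unique r2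
    exact Subtype.ext ((exch (P := P)).dmin_unique hv hw ha hb e')
  · intro q
    induction q using Quotient.inductionOn' with
    | h xy =>
      obtain ⟨x, y⟩ := xy
      obtain ⟨g₁, rfl⟩ := QuotientGroup.mk_surjective x
      obtain ⟨g₂, rfl⟩ := QuotientGroup.mk_surjective y
      obtain ⟨a, ha, w, b, hb, hw, e⟩ := (exch (P := P)).exists_dmin J K (cl P ((g₁⁻¹ * g₂ : G) : G ⧸ P.B))
      have hs := cl_spec (P := P) (g₁⁻¹ * g₂)
      rw [e, ← hn a, ← hn w, ← hn b, show wc P (n a) * wc P (n w) * wc P (n b) = wc P (n a * n w * n b) from rfl,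
        InC.iff_rep] at hs
      obtain ⟨b₁, hb₁, b₂, hb₂, hg⟩ := hs
      refine ⟨⟨w, hw⟩, Quotient.sound' ⟨(g₁ * b₁ * n a)⁻¹, ?_⟩⟩
      have ha' : (n a : G) ∈ parK P J := mem_parK.2 (by rwa [cl_eq (InC.mk (n a)), hn])
      have hb' : (n b : G) ∈ parK P K := mem_parK.2 (by rwa [cl_eq (InC.mk (n b)), hn])
      refine Prod.ext ?_ ?_
      · show (((g₁ * b₁ * n a)⁻¹ * g₁ : G) : G ⧸ parK P J) = ((1 : G) : G ⧸ parK P J)
        rw [QuotientGroup.eq, show ((g₁ * b₁ * (n a : G))⁻¹ * g₁)⁻¹ * 1 = b₁ * (n a : G) by group]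
        exact mul_mem (B_le_parK J hb₁) ha'
      · show (((g₁ * b₁ * n a)⁻¹ * g₂ : G) : G ⧸ parK P K) = ((n w : G) : G ⧸ parK P K)
        rw [QuotientGroup.eq, show (g₁ * b₁ * (n a : G))⁻¹ * g₂ = (n a : G)⁻¹ * b₁⁻¹ * (g₁⁻¹ * g₂) by group, hg]
        simp only [Subgroup.coe_mul]
        rw [show ((n a : G)⁻¹ * b₁⁻¹ * (b₁ * ((n a : G) * n w * n b) * b₂))⁻¹ * n w = b₂⁻¹ * (n b : G)⁻¹ by group]
        exact mul_mem (inv_mem (B_le_parK K hb₂)) (inv_mem hb')

theorem sum_fix_mul (J K : Set P.S) :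
    ∑ g : G, Nat.card (MulAction.fixedBy (G ⧸ parK P J) g) * Nat.card (MulAction.fixedBy (G ⧸ parK P K) g) =
      Nat.card {w : Weyl P // DMin (sref P) J K w} * Nat.card G := by
  haveI := Fintype.ofFinite (G ⧸ parK P J)
  haveI := Fintype.ofFinite (G ⧸ parK P K)
  rw [← card_orbits, Nat.card_eq_fintype_card (α := G), Nat.card_eq_fintype_card,
    ← MulAction.sum_card_fixedBy_eq_card_orbits_mul_card_group]
  refine Finset.sum_congr rfl fun g _ => ?_
  rw [← Nat.card_prod, ← Nat.card_eq_fintype_card]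
  exact Nat.card_congr
    { toFun := fun x => ⟨(x.1.1, x.2.1), Prod.ext x.1.2 x.2.2⟩
      invFun := fun x => (⟨x.1.1, congrArg Prod.fst x.2⟩, ⟨x.1.2, congrArg Prod.snd x.2⟩)
      left_inv := fun x => rfl
      right_inv := fun x => rfl }

/-- the alternating number of double cosets -/
theorem sum_dmin (J : Finset P.S) :
    ∑ K : Finset P.S, ((-1) ^ K.card : ℤ) * (Nat.card {w : Weyl P // DMin (sref P) (J : Set P.S) (K : Set P.S) w} : ℤ) =
      if J = ∅ then 1 else 0 := by
  haveI := Fintype.ofFinite (Weyl P)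
  set LM : Weyl P → Prop := fun w => ∀ j ∈ J, wlen (sref P) w < wlen (sref P) (sref P j * w) with hLM
  have e : ∀ K : Finset P.S, ((-1) ^ K.card : ℤ) *
      (Nat.card {w : Weyl P // DMin (sref P) (J : Set P.S) (K : Set P.S) w} : ℤ) = ∑ w : Weyl P,
        (if LM w then (1 : ℤ) else 0) *
          if ∀ i ∈ K, wlen (sref P) w < wlen (sref P) (w * sref P i) then ((-1) ^ K.card : ℤ) else 0 := by
    intro K
    rw [Nat.card_eq_fintype_card, Fintype.card_subtype, Finset.card_filter, Nat.cast_sum, Finset.mul_sum]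
    refine Finset.sum_congr rfl fun w _ => ?_
    by_cases h1 : LM w
    · by_cases h2 : ∀ i ∈ K, wlen (sref P) w < wlen (sref P) (w * sref P i)
      · have : DMin (sref P) (J : Set P.S) (K : Set P.S) w :=
          ⟨fun j hj => h1 j (Finset.mem_coe.1 hj), fun i hi => h2 i (Finset.mem_coe.1 hi)⟩
        rw [if_pos this, if_pos h1, if_pos h2, Nat.cast_one, mul_one, one_mul]
      · have : ¬ DMin (sref P) (J : Set P.S) (K : Set P.S) w := fun h => h2 fun i hi => h.2 i (Finset.mem_coe.2 hi)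
        rw [if_neg this, if_neg h2, Nat.cast_zero, mul_zero, mul_zero]
    · have : ¬ DMin (sref P) (J : Set P.S) (K : Set P.S) w := fun h => h1 fun j hj => h.1 j (Finset.mem_coe.2 hj)
      simp [h1, this]
  rw [Finset.sum_congr rfl fun K _ => e K, Finset.sum_comm,
    Finset.sum_eq_single (long P (Set.univ : Set P.S))]
  · rw [← Finset.mul_sum, ← Finset.powerset_univ, sum_alt,
      if_pos (fun (i : P.S) (_ : i ∈ Finset.univ) =>
        not_lt.2 (long_dmax (Set.univ : Set P.S) i (Set.mem_univ i)).le), mul_one]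
    refine if_congr ⟨fun hall => Finset.eq_empty_of_forall_notMem fun j hj => ?_,
      fun hJ => by simp [hLM, hJ]⟩ rfl rfl
    have h1 := hall j hj
    have h2 := long_add (P := P) (sigma_mem_Wp (σ := sref P) (Set.mem_univ j) :
      sref P j ∈ Wp (sref P) (Set.univ : Set P.S))
    rw [mul_inv_cancel_left, (invGen P).inv_eq] at h2
    omega
  · intro w _ hne
    rw [← Finset.mul_sum, ← Finset.powerset_univ, sum_alt]
    refine mul_eq_zero_of_right _ (if_neg fun hall => hne (long_eq (mem_Wp_univ w) fun i _ => ?_))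
    exact lt_of_le_of_ne (not_lt.1 (hall i (Finset.mem_univ i))) ((exch (P := P)).len_ne_right w i)
  · exact fun h => absurd (Finset.mem_univ _) h

theorem sum_stSum_sq : ∑ g : G, stSum P g * stSum P g = (Nat.card G : ℤ) := by
  have e : ∀ J K : Finset P.S, ∑ g : G,
      ((-1 : ℤ) ^ J.card * (Nat.card (MulAction.fixedBy (G ⧸ parK P (J : Set P.S)) g) : ℤ)) *
        ((-1) ^ K.card * (Nat.card (MulAction.fixedBy (G ⧸ parK P (K : Set P.S)) g) : ℤ)) =
      (-1) ^ J.card * ((-1) ^ K.card * (Nat.card {w : Weyl P // DMin (sref P) (J : Set P.S) (K : Set P.S) w} : ℤ)) *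
        (Nat.card G : ℤ) := by
    intro J K
    have h1 : ((∑ g : G, Nat.card (MulAction.fixedBy (G ⧸ parK P (J : Set P.S)) g) *
        Nat.card (MulAction.fixedBy (G ⧸ parK P (K : Set P.S)) g) : ℕ) : ℤ) = _ := congrArg Nat.cast (sum_fix_mul _ _)
    push_cast at h1
    rw [mul_assoc, mul_assoc, ← h1, ← mul_assoc, Finset.mul_sum]
    exact Finset.sum_congr rfl fun g _ => by ring
  simp only [stSum, Finset.sum_mul_sum]
  rw [Finset.sum_comm]
  simp only [Finset.sum_comm (s := (Finset.univ : Finset G)), e]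
  simp only [← Finset.sum_mul, ← Finset.mul_sum, sum_dmin, mul_ite, mul_one, mul_zero, Finset.sum_ite_eq',
    Finset.mem_univ, if_true, Finset.card_empty, pow_zero, one_mul]

theorem isGeneralized_stSum : Cfsg.IsGeneralizedCharacter G fun g => (stSum P g : ℂ) := by
  have e : (fun g : G => (stSum P g : ℂ)) = ∑ K : Finset P.S,
      (((-1) ^ K.card : ℤ) : ℂ) • Cfsg.indFun (parK P (K : Set P.S)) (fun _ => (1 : ℂ)) := by
    funext g
    rw [stSum, Finset.sum_apply, Int.cast_sum]
    refine Finset.sum_congr rfl fun K _ => ?_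
    rw [Pi.smul_apply, Cfsg.Lib.Characters.indFun_one_eq_fixCount, smul_eq_mul, Int.cast_mul]
    rfl
  rw [e]
  refine Finset.sum_induction _ (Cfsg.IsGeneralizedCharacter G)
    (fun a b => Cfsg.Lib.Characters.isGeneralized_add) ?_ fun K _ => ?_
  · exact Cfsg.Lib.Characters.isGeneralized_of_isCharacter Cfsg.Lib.Characters.isCharacter_zero
  · exact Cfsg.Lib.Characters.isGeneralized_zsmul (Cfsg.Lib.Characters.isGeneralized_of_isCharacter
      (Cfsg.Lib.Characters.isCharacter_indFun _ Cfsg.Lib.Characters.isCharacter_one)) _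

theorem Split.isIrr (h : Split P p U) [Fact p.Prime] : Cfsg.IsIrrCharacter G fun g => (stSum P g : ℂ) := by
  rcases Cfsg.Lib.Characters.isGeneralized_norm_one (isGeneralized_stSum (P := P)) (by
    rw [Cfsg.classInner]
    simp only [map_intCast]
    have := congrArg (fun z : ℤ => (z : ℂ)) (sum_stSum_sq (P := P))
    push_cast at this
    rw [this, inv_mul_cancel₀ (Nat.cast_ne_zero.2 Nat.card_pos.ne')]) with h1 | h1
  · exact h1
  · exfalso
    obtain ⟨d, ρ, -, hd⟩ := h1
    have := congrFun hd 1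
    rw [Representation.char_one, Pi.neg_apply, h.stSum_one, Int.cast_natCast, eq_neg_iff_add_eq_zero,
      ← Nat.cast_add, Nat.cast_eq_zero] at this
    have := Nat.card_pos (α := U)
    omega

theorem Split.stSum_eq_zero (h : Split P p U) [Fact p.Prime] {g : G} (hg : p ∣ orderOf g) : stSum P g = 0 := by
  obtain ⟨M, hM⟩ := Cfsg.Lib.Blocks.exists_isPModular p
  haveI : M.IsPrime := Ideal.IsMaximal.isPrime hM.2.1
  let χ : Cfsg.IrrCharacter G := ⟨_, h.isIrr⟩
  have hd : Cfsg.charDegree (χ : G → ℂ) = Nat.card U :=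
    Cfsg.Lib.Blocks.charDegree_eq (show ((stSum P 1 : ℤ) : ℂ) = _ by rw [h.stSum_one, Int.cast_natCast])
  have hfac : (Cfsg.charDegree (χ : G → ℂ)).factorization p = (Nat.card G).factorization p := by
    let S : Sylow p G := ⟨U, h.pgroup, fun {Q} hQ hle => h.max Q hQ hle⟩
    have e : Nat.card U = p ^ (Nat.card G).factorization p := S.card_eq_multiplicity
    rw [hd, e, (Fact.out : p.Prime).factorization_pow, Finsupp.single_eq_same]
  have := Cfsg.Lib.Blocks.eq_zero_of_defectZero hM χ (Cfsg.Lib.Blocks.blockOf_eq_singleton hM χ hfac) hg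
  exact Int.cast_eq_zero.1 this

end Cfsg.Lib.LieBN
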