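/-
In the modular group algebra of a split (B,N)-pair, central elements act on the sum over `U`
through one fixed element: there is at most one block of defect zero.
-/
import Cfsg.Agent.Lib.LieBN.SteinbergChar
import Cfsg.Agent.Lib.Blocks.DefectZero

set_option autoImplicit false
set_option linter.unusedSectionVars false

namespace Cfsg.Lib.LieBN

open scoped Classical
open Cfsg.Lib.Blocks (IsClassElt gr_ext gr_mul_apply gr_mul_apply' gr_sum_apply isClassElt_iff_of_commute)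

variable {G : Type*} [Group G] [Fintype G] {P : Cfsg.BNPair G} {p : ℕ} {U : Subgroup G}
variable {R : Type*} [CommRing R]

/-- a group element in the group algebra -/
noncomputable def dl (R : Type*) [CommRing R] (g : G) : MonoidAlgebra R G := MonoidAlgebra.single g 1

theorem dl_mul (g h : G) : dl R g * dl R h = dl R (g * h) := by
  simp [dl, MonoidAlgebra.single_mul_single]

theorem dl_one : dl R (1 : G) = 1 := rfl

theorem coeff_mul_dl (x : MonoidAlgebra R G) (g c : G) : (x * dl R g).coeff c = x.coeff (c * g⁻¹) := by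
  rw [gr_mul_apply', Finset.sum_eq_single g]
  · simp [dl]
  · intro b _ hb; simp [dl, Ne.symm hb]
  · simp

theorem coeff_dl_mul (x : MonoidAlgebra R G) (g c : G) : (dl R g * x).coeff c = x.coeff (g⁻¹ * c) := by
  rw [gr_mul_apply, Finset.sum_eq_single g]
  · simp [dl]
  · intro b _ hb; simp [dl, Ne.symm hb]
  · simp

/-- a sum over a set invariant under a `p`-subgroup vanishes in characteristic `p` -/
theorem sum_invariant_eq_zero [Fact p.Prime] (hR : (p : R) = 0) {I : Subgroup G} (hI : IsPGroup p I) (hne : I ≠ ⊥)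
    {X : Finset G} (hX : ∀ x ∈ X, ∀ i ∈ I, x * i ∈ X) {f : G → MonoidAlgebra R G}
    (hf : ∀ x ∈ X, ∀ i ∈ I, f (x * i) = f x) : ∑ x ∈ X, f x = 0 := by
  rw [← Finset.sum_fiberwise_of_maps_to (t := X.image (fun x : G => (x : G ⧸ I))) (g := fun x : G => (x : G ⧸ I))
    (fun x hx => Finset.mem_image_of_mem _ hx)]
  refine Finset.sum_eq_zero fun q hq => ?_
  obtain ⟨x, hx, rfl⟩ := Finset.mem_image.1 hq
  have e : X.filter (fun y : G => (y : G ⧸ I) = (x : G ⧸ I)) = (Finset.univ : Finset I).image (fun i : I => x * (i : G)) := by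
    ext y
    simp only [Finset.mem_filter, Finset.mem_image, Finset.mem_univ, true_and]
    constructor
    · rintro ⟨-, hy⟩
      exact ⟨⟨x⁻¹ * y, QuotientGroup.eq.1 hy.symm⟩, mul_inv_cancel_left x y⟩
    · rintro ⟨i, rfl⟩
      exact ⟨hX x hx i i.2, QuotientGroup.eq.2 (by simp)⟩
  rw [e, Finset.sum_image (fun a _ b _ h => Subtype.ext (mul_left_cancel h)),
    Finset.sum_congr rfl fun (i : I) _ => hf x hx i i.2, Finset.sum_const, Finset.card_univ,
    ← Nat.card_eq_fintype_card]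
  obtain ⟨k, hk⟩ := hI.exists_card_eq
  rcases k with - | k
  · exact absurd (Subgroup.eq_bot_of_card_eq I (by rw [hk, pow_zero])) hne
  · rw [hk, ← Nat.cast_smul_eq_nsmul R, Nat.cast_pow, hR, zero_pow k.succ_ne_zero, zero_smul]

/-- the double coset of `U` -/
noncomputable def dset (U : Subgroup G) (n : G) : Finset G :=
  Finset.univ.filter fun g => ∃ u ∈ U, ∃ v ∈ U, g = u * n * v

theorem mem_dset {n g : G} : g ∈ dset U n ↔ ∃ u ∈ U, ∃ v ∈ U, g = u * n * v := by simp [dset]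

/-- the sum over a double coset of `U` -/
noncomputable def tsum' (R : Type*) [CommRing R] (U : Subgroup G) (n : G) : MonoidAlgebra R G :=
  ∑ g ∈ dset U n, dl R g

/-- the sum over `U` -/
noncomputable def esum (R : Type*) [CommRing R] (U : Subgroup G) : MonoidAlgebra R G :=
  ∑ u : U, dl R (u : G)

theorem dl_mul_esum {v : G} (hv : v ∈ U) : dl R v * esum R U = esum R U := by
  rw [esum, Finset.mul_sum]
  simp only [dl_mul]
  exact Fintype.sum_equiv (Equiv.mulLeft (⟨v, hv⟩ : U)) _ _ fun _ => rfl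

theorem esum_mul_dl {v : G} (hv : v ∈ U) : esum R U * dl R v = esum R U := by
  rw [esum, Finset.sum_mul]
  simp only [dl_mul]
  exact Fintype.sum_equiv (Equiv.mulRight (⟨v, hv⟩ : U)) _ _ fun _ => rfl

theorem dset_mul_right {n g v : G} (hv : v ∈ U) (h : g ∈ dset U n) : g * v ∈ dset U n := by
  obtain ⟨a, ha, b, hb, rfl⟩ := mem_dset.1 h
  exact mem_dset.2 ⟨a, ha, b * v, mul_mem hb hv, by group⟩

theorem tsum_mul_dl {n v : G} (hv : v ∈ U) : tsum' R U n * dl R v = tsum' R U n := by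
  rw [tsum', Finset.sum_mul]
  simp only [dl_mul]
  refine Finset.sum_nbij' (· * v) (· * v⁻¹) (fun g hg => dset_mul_right hv hg)
    (fun g hg => dset_mul_right (inv_mem hv) hg) (fun g _ => by simp) (fun g _ => by simp) (fun g _ => rfl)

theorem dset_one : dset U (1 : G) = (Finset.univ : Finset U).image (fun u : U => (u : G)) := by
  ext g
  simp only [mem_dset, Finset.mem_image, Finset.mem_univ, true_and]
  constructor
  · rintro ⟨a, ha, b, hb, rfl⟩; exact ⟨⟨a * 1 * b, by rw [mul_one]; exact mul_mem ha hb⟩, rfl⟩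
  · rintro ⟨u, rfl⟩; exact ⟨u, u.2, 1, one_mem _, by group⟩

theorem tsum_one : tsum' R U (1 : G) = esum R U := by
  rw [tsum', dset_one, Finset.sum_image (fun a _ b _ h => Subtype.ext h)]
  rfl

theorem dset_mul_left {n t : G} (ht : ∀ u ∈ U, t * u * t⁻¹ ∈ U) (ht' : ∀ u ∈ U, t⁻¹ * u * t ∈ U) (g : G) :
    g ∈ dset U (t * n) ↔ t⁻¹ * g ∈ dset U n := by
  rw [mem_dset, mem_dset]
  constructor
  · rintro ⟨a, ha, b, hb, rfl⟩; exact ⟨t⁻¹ * a * t, ht' a ha, b, hb, by group⟩
  · rintro ⟨a, ha, b, hb, e⟩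
    refine ⟨t * a * t⁻¹, ht a ha, b, hb, ?_⟩
    rw [← mul_inv_cancel_left t g, e]; group

theorem tsum_torus_left {n t : G} (ht : ∀ u ∈ U, t * u * t⁻¹ ∈ U) (ht' : ∀ u ∈ U, t⁻¹ * u * t ∈ U) :
    dl R t * tsum' R U n = tsum' R U (t * n) := by
  rw [tsum', Finset.mul_sum]
  simp only [dl_mul]
  refine Finset.sum_nbij' (t * ·) (t⁻¹ * ·) (fun g hg => ?_) (fun g hg => (dset_mul_left ht ht' g).1 hg)
    (fun g _ => by simp) (fun g _ => by simp) (fun g _ => rfl)
  exact (dset_mul_left ht ht' _).2 (by rwa [inv_mul_cancel_left])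

theorem tsum_torus_right {n t : G} (ht : ∀ u ∈ U, t * u * t⁻¹ ∈ U) (ht' : ∀ u ∈ U, t⁻¹ * u * t ∈ U) :
    tsum' R U n * dl R t = tsum' R U (n * t) := by
  rw [tsum', Finset.sum_mul]
  simp only [dl_mul]
  refine Finset.sum_nbij' (· * t) (· * t⁻¹) ?_ ?_ (fun g _ => by simp) (fun g _ => by simp) (fun g _ => rfl)
  · intro g hg
    obtain ⟨a, ha, b, hb, rfl⟩ := mem_dset.1 hg
    exact mem_dset.2 ⟨a, ha, t⁻¹ * b * t, ht' b hb, by group⟩
  · intro g hg
    obtain ⟨a, ha, b, hb, rfl⟩ := mem_dset.1 hg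
    exact mem_dset.2 ⟨a, ha, t * b * t⁻¹, ht b hb, by group⟩

namespace Split

variable [Fact p.Prime]

theorem torus_normal (h : Split P p U) {t : G} (ht : t ∈ P.B ⊓ P.N) :
    (∀ u ∈ U, t * u * t⁻¹ ∈ U) ∧ ∀ u ∈ U, t⁻¹ * u * t ∈ U :=
  ⟨h.normal t ht.1, fun u hu => by simpa using h.normal t⁻¹ (inv_mem ht.1) u hu⟩

theorem one_le_ncell (w : Weyl P) : 1 ≤ ncell P w := by
  obtain ⟨g, hg⟩ := InC.exists_mem (P := P) w
  haveI : Nonempty {x : G ⧸ P.B // cl P x = w} := ⟨⟨(g : G ⧸ P.B), cl_eq hg⟩⟩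
  exact Nat.card_pos

theorem two_le_ncell_sref (s : P.S) : 2 ≤ ncell P (sref P s) := by
  by_contra hlt
  push Not at hlt
  have h1 : ncell P (sref P s) = 1 := le_antisymm (by omega) (one_le_ncell _)
  rw [ncell, Nat.card_eq_one_iff_unique] at h1
  haveI := h1.1
  set n : P.N := ⟨(s : G), P.subset s.2⟩
  have hfix : ∀ b ∈ P.B, (s : G)⁻¹ * b * s ∈ P.B := by
    intro b hb
    have e := congrArg Subtype.val (Subsingleton.elim
      (⟨b • ((s : G) : G ⧸ P.B), by rw [cl_smul hb]; exact cl_eq (InC.mk n)⟩ :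
        {x : G ⧸ P.B // cl P x = sref P s})
      ⟨((s : G) : G ⧸ P.B), cl_eq (InC.mk n)⟩)
    have e' : ((b * s : G) : G ⧸ P.B) = ((s : G) : G ⧸ P.B) := e
    rw [QuotientGroup.eq] at e'
    simpa [mul_assoc] using inv_mem e'
  refine P.conj_ne s s.2 (Set.eq_of_subset_of_ncard_le ?_ ?_ (Set.toFinite _))
  · rintro _ ⟨b, hb, rfl⟩
    have e : (s : G) * b * s = (s * s : G) * ((s : G)⁻¹ * b * s) := by group
    show (s : G) * b * s ∈ P.B
    rw [e]
    exact mul_mem (P.sq_mem s s.2) (hfix b hb)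
  · exact (Set.ncard_image_of_injective _ fun a b hab => mul_left_cancel (mul_right_cancel hab)).ge

theorem two_le_ncell {x : Weyl P} (hx : x ≠ 1) : 2 ≤ ncell P x := by
  obtain ⟨L, hL, rfl⟩ := (invGen P).exists_reduced x
  cases L with
  | nil => simp at hx
  | cons s L =>
    rw [wprod_cons] at hL ⊢
    have h1 := wlen_le (σ := sref P) L
    have h2 := (invGen P).wlen_mul_le (sref P s) (wprod (sref P) L)
    have h3 := (invGen P).wlen_sigma_le s
    simp only [List.length_cons] at hL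
    rw [ncell_mul (by omega)]
    have := Nat.mul_le_mul (two_le_ncell_sref s) (one_le_ncell (P := P) (wprod (sref P) L))
    omega

variable [Fintype P.S]

/-- outside the big cell `U` meets a conjugate -/
theorem exists_inter (h : Split P p U) {g : G}
    (hg : cl P (g : G ⧸ P.B) ≠ long P ((Finset.univ : Finset P.S) : Set P.S)) :
    ∃ u ∈ U, u ≠ 1 ∧ g⁻¹ * u * g ∈ U := by
  by_contra hcon
  push Not at hcon
  set J : Set P.S := ((Finset.univ : Finset P.S) : Set P.S)
  set w := cl P (g : G ⧸ P.B)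
  have hinj : Function.Injective (fun u : U => (⟨(u : G) • (g : G ⧸ P.B), by rw [cl_smul (h.le u.2)]⟩ :
      {x : G ⧸ P.B // cl P x = w})) := by
    intro a b hab
    have e : (((a : G) * g : G) : G ⧸ P.B) = (((b : G) * g : G) : G ⧸ P.B) := congrArg Subtype.val hab
    rw [QuotientGroup.eq] at e
    have hU : (a : G)⁻¹ * b ∈ U := mul_mem (inv_mem a.2) b.2
    have e' : g⁻¹ * ((a : G)⁻¹ * b) * g ∈ P.B := by simpa [mul_assoc] using e
    by_contra hne
    refine hcon _ hU (fun h1 => hne (Subtype.ext (inv_mul_eq_one.1 h1))) (h.mem_U e' ?_)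
    obtain ⟨k, hk⟩ := h.pel_of_mem hU
    refine ⟨k, ?_⟩
    rw [← hk]
    convert (MulAut.conj g⁻¹).orderOf_eq ((a : G)⁻¹ * b) using 2
    simp
  have h1 := Nat.card_le_card_of_injective _ hinj
  have h2 : wlen (sref P) (w * (w⁻¹ * long P J)) = wlen (sref P) w + wlen (sref P) (w⁻¹ * long P J) :=
    long_add (by simp only [J, Finset.coe_univ]; exact mem_Wp_univ w)
  have h3 := ncell_mul (P := P) h2
  rw [mul_inv_cancel_left, h.ncell_univ] at h3
  have h4 := two_le_ncell (P := P) (x := w⁻¹ * long P J) (fun e => hg (inv_mul_eq_one.1 e))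
  have h5 : 0 < Nat.card U := Nat.card_pos
  have : Nat.card U ≤ ncell P w := h1
  have := Nat.mul_le_mul_left (ncell P w) h4
  omega

theorem esum_dl_esum (h : Split P p U) (hR : (p : R) = 0) {g : G}
    (hg : cl P (g : G ⧸ P.B) ≠ long P ((Finset.univ : Finset P.S) : Set P.S)) (n : G) :
    tsum' R U n * dl R g * esum R U = 0 := by
  obtain ⟨u, hu, hu1, hug⟩ := h.exists_inter hg
  rw [tsum', Finset.sum_mul, Finset.sum_mul]
  have hI : Subgroup.zpowers u ≤ U := Subgroup.zpowers_le.2 hu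
  refine sum_invariant_eq_zero (p := p) hR (I := Subgroup.zpowers u) (h.pgroup.to_le hI)
    (fun e => hu1 (Subgroup.zpowers_eq_bot.1 e)) (fun x hx i hi => dset_mul_right (hI hi) hx) fun x _ i hi => ?_
  have hi' : g⁻¹ * i * g ∈ U := by
    obtain ⟨k, rfl⟩ := Subgroup.mem_zpowers_iff.1 hi
    have : g⁻¹ * u ^ k * g = (g⁻¹ * u * g) ^ k := by
      rw [show g⁻¹ * u * g = MulAut.conj g⁻¹ u by simp, ← map_zpow]; simp
    rw [this]; exact zpow_mem hug k
  rw [dl_mul, dl_mul, show x * i * g = x * g * (g⁻¹ * i * g) by group, ← dl_mul (x * g), mul_assoc (dl R (x * g)),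
    dl_mul_esum hi']

end Split

/-- rank one data -/
structure RankOne (P : Cfsg.BNPair G) (U : Subgroup G) (ι : Type*) where
  /-- the root subgroup -/
  X : P.S → Subgroup G
  /-- its nontrivial elements -/
  par : P.S → ι → G
  /-- the torus part of a conjugate -/
  hh : P.S → ι → G
  /-- the torus elements fixing the sum of the torus parts -/
  K : P.S → Set G
  le : ∀ s, X s ≤ U
  par_mem : ∀ s b, par s b ∈ X s ∧ par s b ≠ 1
  par_inj : ∀ s, Function.Injective (par s)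
  par_surj : ∀ s, ∀ x ∈ X s, x ≠ 1 → ∃ b, par s b = x
  split : ∀ s : P.S, ∀ u ∈ U, ∃ v ∈ U, (s : G) * v * (s : G)⁻¹ ∈ U ∧ ∃ x ∈ X s, u = v * x
  hh_mem : ∀ s b, hh s b ∈ P.B ⊓ P.N
  rankOne : ∀ (s : P.S) b, ∃ u₁ ∈ U, ∃ u₂ ∈ X s,
    (s : G) * par s b * (s : G)⁻¹ = u₁ * hh s b * (s : G) * u₂
  flip : ∀ (s : P.S) (n₀ : P.N), wc P n₀ = long P (Set.univ : Set P.S) → ∀ x ∈ X s,
    ((s : G)⁻¹ * n₀)⁻¹ * x * ((s : G)⁻¹ * n₀) ∈ U
  shift : ∀ s, ∀ t ∈ K s, ∃ e : ι ≃ ι, ∀ b, hh s (e b) = t * hh s b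
  gen : P.B ⊓ P.N ≤ Subgroup.closure (⋃ s, K s)
  K_le : ∀ s, K s ⊆ ((P.B ⊓ P.N : Subgroup G) : Set G)
  comm : ∀ a ∈ P.B ⊓ P.N, ∀ b ∈ P.B ⊓ P.N, a * b = b * a

/-- combinations of torus elements -/
noncomputable def torSpan (R : Type*) [CommRing R] (P : Cfsg.BNPair G) : Submodule R (MonoidAlgebra R G) :=
  Submodule.span R {x | ∃ t ∈ P.B ⊓ P.N, x = dl R t}

theorem torSpan_mul {x y : MonoidAlgebra R G} (hx : x ∈ torSpan R P) (hy : y ∈ torSpan R P) :
    x * y ∈ torSpan R P := by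
  induction hx using Submodule.span_induction with
  | mem a ha =>
    obtain ⟨t, ht, rfl⟩ := ha
    induction hy using Submodule.span_induction with
    | mem b hb =>
      obtain ⟨t', ht', rfl⟩ := hb
      rw [dl_mul]
      exact Submodule.subset_span ⟨_, mul_mem ht ht', rfl⟩
    | zero => rw [mul_zero]; exact zero_mem _
    | add a b _ _ iha ihb => rw [mul_add]; exact add_mem iha ihb
    | smul c a _ iha => rw [mul_smul_comm]; exact Submodule.smul_mem _ _ iha
  | zero => rw [zero_mul]; exact zero_mem _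
  | add a b _ _ iha ihb => rw [add_mul]; exact add_mem iha ihb
  | smul c a _ iha => rw [smul_mul_assoc]; exact Submodule.smul_mem _ _ iha

namespace RankOne

variable {ι : Type*} [Fintype ι] [Fintype P.S] [Fact p.Prime]

/-- the sum of the torus parts -/
noncomputable def hs (d : RankOne P U ι) (R : Type*) [CommRing R] (s : P.S) : MonoidAlgebra R G :=
  ∑ b, dl R (d.hh s b * ((s : G) * s))

theorem hs_mem (d : RankOne P U ι) (s : P.S) : d.hs R s ∈ torSpan R P :=
  Submodule.sum_mem _ fun b _ => Submodule.subset_span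
    ⟨_, mul_mem (d.hh_mem s b) ⟨P.sq_mem s s.2, mul_mem (P.subset s.2) (P.subset s.2)⟩, rfl⟩

theorem shift_hs (d : RankOne P U ι) {s : P.S} {t : G} (ht : t ∈ d.K s) : dl R t * d.hs R s = d.hs R s := by
  obtain ⟨e, he⟩ := d.shift s t ht
  rw [hs, Finset.mul_sum]
  refine Fintype.sum_equiv e _ _ fun b => ?_
  rw [dl_mul, he, mul_assoc]

/-- a root subgroup moved by an element making lengths add stays in `U` -/
theorem conj_mem (d : RankOne P U ι) (h : Split P p U) {n : P.N} (s : P.S)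
    (hl : wlen (sref P) (wc P n * sref P s) = wlen (sref P) (wc P n) + 1) {x : G} (hx : x ∈ d.X s) :
    (n : G) * x * (n : G)⁻¹ ∈ U := by
  obtain ⟨n₀, hn₀⟩ := QuotientGroup.mk_surjective (long P (Set.univ : Set P.S))
  have hn₀' : wc P n₀ = long P (Set.univ : Set P.S) := hn₀
  set w' := (wc P n)⁻¹ with hw'
  obtain ⟨y, hy⟩ : ∃ y, y = (sref P s * w')⁻¹ * long P (Set.univ : Set P.S) := ⟨_, rfl⟩
  have hinv : wlen (sref P) (sref P s * w') = wlen (sref P) w' + 1 := by
    have e : (sref P s * w')⁻¹ = wc P n * sref P s := by rw [mul_inv_rev, hw', inv_inv, (invGen P).inv_eq]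
    rw [← (invGen P).wlen_inv, e, hl, hw', (invGen P).wlen_inv]
  have h1 := long_add (P := P) (J := (Set.univ : Set P.S)) (v := sref P s * w') (mem_Wp_univ _)
  have hwy : w' * y = sref P s * long P (Set.univ : Set P.S) := by
    rw [hy, mul_inv_rev, (invGen P).inv_eq, mul_assoc, mul_inv_cancel_left]
  have hadd : wlen (sref P) (w' * y) = wlen (sref P) w' + wlen (sref P) y := by
    rw [hwy]
    rw [mul_inv_cancel_left] at h1
    have h2 := (invGen P).wlen_mul_le w' y
    have h3 := (invGen P).wlen_mul_le_succ s (sref P s * long P (Set.univ : Set P.S))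
    rw [← mul_assoc, sref_mul_self, one_mul] at h3
    rw [hwy] at h2
    rw [← hy] at h1
    omega
  set sn : P.N := ⟨(s : G), P.subset s.2⟩
  have hg : InC P ((n : G)⁻¹) w' := InC.mk n⁻¹
  have hh : InC P ((n : G) * ((s : G)⁻¹ * n₀)) y := by
    have e : wc P (n * (sn⁻¹ * n₀)) = y := by
      show wc P n * ((sref P s)⁻¹ * wc P n₀) = y
      rw [hn₀', hy, mul_inv_rev, hw', inv_inv, mul_assoc]
    rw [← e]
    exact InC.mk (n * (sn⁻¹ * n₀))
  have hflip := d.flip s n₀ hn₀' x hx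
  have hfix : ((x * (n : G)⁻¹ * ((n : G) * ((s : G)⁻¹ * n₀)) : G) : G ⧸ P.B) =
      (((n : G)⁻¹ * ((n : G) * ((s : G)⁻¹ * n₀)) : G) : G ⧸ P.B) := by
    rw [QuotientGroup.eq]
    simpa [mul_assoc] using inv_mem (h.le hflip)
  have h4 := pred_unique hadd (hg.mul_left (h.le (d.le s hx))) hg hh hh hfix
  rw [QuotientGroup.eq] at h4
  have h5 : (n : G) * x * (n : G)⁻¹ ∈ P.B := by simpa [mul_assoc] using inv_mem h4
  refine h.mem_U h5 ?_
  rw [← MulAut.conj_apply, MulEquiv.orderOf_eq]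
  exact h.pel_of_mem (d.le s hx)

theorem InC_rankOne (d : RankOne P U ι) (h : Split P p U) (s : P.S) {x : G} (hx : x ∈ d.X s) (hx1 : x ≠ 1) :
    InC P ((s : G) * x * (s : G)⁻¹) (sref P s) := by
  obtain ⟨b, rfl⟩ := d.par_surj s x hx hx1
  obtain ⟨u₁, hu₁, u₂, hu₂, e⟩ := d.rankOne s b
  rw [e]
  exact InC.iff_rep.2 ⟨u₁ * d.hh s b, mul_mem (h.le hu₁) (d.hh_mem s b).1, u₂, h.le (d.le s hu₂), rfl⟩

theorem tsum_mul (d : RankOne P U ι) (h : Split P p U) {n : P.N} (s : P.S)
    (hl : wlen (sref P) (wc P n * sref P s) = wlen (sref P) (wc P n) + 1) :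
    tsum' R U ((n : G) * s) = tsum' R U (n : G) * ∑ x : d.X s, dl R ((s : G) * x) := by
  rw [tsum', tsum', Finset.sum_mul_sum, ← Finset.sum_product']
  simp only [dl_mul]
  symm
  refine Finset.sum_bij (fun a _ => a.1 * ((s : G) * a.2)) ?_ ?_ ?_ (fun a _ => rfl)
  · intro a ha
    obtain ⟨u, hu, v, hv, e⟩ := mem_dset.1 (Finset.mem_product.1 ha).1
    obtain ⟨w, hw, hw2, x, hx, e₁⟩ := d.split s v⁻¹ (inv_mem hv)
    have hv' : v = x⁻¹ * w⁻¹ := by rw [← mul_inv_rev, ← e₁, inv_inv]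
    have hss := h.torus_normal (t := (s : G) * s) ⟨P.sq_mem s s.2, mul_mem (P.subset s.2) (P.subset s.2)⟩
    refine mem_dset.2 ⟨u * ((n : G) * x⁻¹ * (n : G)⁻¹), mul_mem hu (d.conj_mem h s hl (inv_mem hx)),
      (((s : G) * s)⁻¹ * ((s : G) * w⁻¹ * (s : G)⁻¹) * ((s : G) * s)) * a.2,
      mul_mem (hss.2 _ ?_) (d.le s a.2.2), by rw [e, hv']; group⟩
    have := inv_mem hw2
    rwa [show ((s : G) * w * (s : G)⁻¹)⁻¹ = (s : G) * w⁻¹ * (s : G)⁻¹ by group] at this
  · intro a ha a' ha' e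
    obtain ⟨ha1, -⟩ := Finset.mem_product.1 ha
    obtain ⟨ha1', -⟩ := Finset.mem_product.1 ha'
    by_cases hx : (a'.2 : G) * (a.2 : G)⁻¹ = 1
    · have h2 : a.2 = a'.2 := Subtype.ext (mul_inv_eq_one.1 hx).symm
      rw [h2] at e
      exact Prod.ext (mul_right_cancel e) h2
    exfalso
    have e' : a.1 = a'.1 * ((s : G) * ((a'.2 : G) * (a.2 : G)⁻¹) * (s : G)⁻¹) := by
      rw [eq_mul_inv_of_mul_eq e]; group
    have hcell : ∀ y ∈ dset U (n : G), InC P y (wc P n) := by
      intro y hy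
      obtain ⟨u, hu, v, hv, rfl⟩ := mem_dset.1 hy
      exact ((InC.mk n).mul_left (h.le hu)).mul_right (h.le hv)
    have h2 := InC.mul_of_add (P := P) (u := wc P n) (x := sref P s) (by
        rw [hl]
        have h3 := (invGen P).wlen_sigma_le s
        have h4 := (invGen P).wlen_mul_le (wc P n) (sref P s)
        omega)
      (hcell _ ha1') (d.InC_rankOne h s (mul_mem a'.2.2 (inv_mem a.2.2)) hx)
    rw [← e'] at h2
    exact sref_ne_one s (mul_eq_left.1 ((hcell _ ha1).unique h2).symm)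
  · intro g hg
    obtain ⟨u, hu, v, hv, rfl⟩ := mem_dset.1 hg
    obtain ⟨v₁, hv₁, hv₂, x, hx, rfl⟩ := d.split s v hv
    refine ⟨(u * n * ((s : G) * v₁ * (s : G)⁻¹), ⟨x, hx⟩),
      Finset.mem_product.2 ⟨mem_dset.2 ⟨u, hu, _, hv₂, rfl⟩, Finset.mem_univ _⟩, ?_⟩
    group

theorem tsum_step (d : RankOne P U ι) (h : Split P p U) (hR : (p : R) = 0) {n n₀ : P.N} (s : P.S)
    (hl : wlen (sref P) (wc P n * sref P s) = wlen (sref P) (wc P n) + 1)
    (hn₀ : wc P n₀ = long P (Set.univ : Set P.S)) :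
    ∃ H : MonoidAlgebra R G, H ∈ torSpan R P ∧ (wc P n = 1 → (n : G) = 1 → H = d.hs R s) ∧
      tsum' R U ((n : G) * s) * dl R (n₀ : G) * esum R U = H * (tsum' R U (n : G) * dl R (n₀ : G) * esum R U) := by
  refine ⟨∑ b, dl R ((n : G) * (d.hh s b * ((s : G) * s)) * (n : G)⁻¹),
    Submodule.sum_mem _ fun b _ => Submodule.subset_span ⟨_, ?_, rfl⟩, ?_, ?_⟩
  · have ht : d.hh s b * ((s : G) * s) ∈ P.B ⊓ P.N :=
      mul_mem (d.hh_mem s b) ⟨P.sq_mem s s.2, mul_mem (P.subset s.2) (P.subset s.2)⟩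
    exact ⟨P.conj_mem _ n.2 _ ht, mul_mem (mul_mem n.2 ht.2) (P.N.inv_mem n.2)⟩
  · intro _ h1
    simp [hs, h1]
  rw [d.tsum_mul h s hl]
  simp only [Finset.mul_sum, Finset.sum_mul]
  have hbig : cl P (((s : G) * n₀ : G) : G ⧸ P.B) ≠ long P ((Finset.univ : Finset P.S) : Set P.S) := by
    rw [show cl P (((s : G) * n₀ : G) : G ⧸ P.B) = sref P s * wc P n₀ from
      cl_eq (InC.mk (⟨(s : G), P.subset s.2⟩ * n₀)), hn₀, Finset.coe_univ]
    exact fun e => sref_ne_one s (mul_eq_right.1 e)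
  have h1 : ∀ x : d.X s, x = 1 →
      tsum' R U (n : G) * dl R ((s : G) * x) * dl R (n₀ : G) * esum R U = 0 := by
    rintro x rfl
    rw [Subgroup.coe_one, mul_one, mul_assoc (tsum' R U (n : G)), dl_mul]
    exact h.esum_dl_esum hR hbig _
  rw [← Finset.sum_erase_add _ _ (Finset.mem_univ (1 : d.X s)), h1 1 rfl, add_zero]
  symm
  refine Finset.sum_bij (fun b _ => (⟨d.par s b, (d.par_mem s b).1⟩ : d.X s)) ?_ ?_ ?_ ?_
  · intro b _
    exact Finset.mem_erase.2 ⟨fun e => (d.par_mem s b).2 (congrArg Subtype.val e), Finset.mem_univ _⟩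
  · intro b _ b' _ e
    exact d.par_inj s (congrArg Subtype.val e)
  · intro x hx
    obtain ⟨b, hb⟩ := d.par_surj s x x.2 (fun e => (Finset.mem_erase.1 hx).1 (Subtype.ext e))
    exact ⟨b, Finset.mem_univ _, Subtype.ext hb⟩
  intro b _
  obtain ⟨u₁, hu₁, u₂, hu₂, e⟩ := d.rankOne s b
  have ht : d.hh s b * ((s : G) * s) ∈ P.B ⊓ P.N :=
    mul_mem (d.hh_mem s b) ⟨P.sq_mem s s.2, mul_mem (P.subset s.2) (P.subset s.2)⟩
  have hn₀' : wc P (⟨(s : G) * s, mul_mem (P.subset s.2) (P.subset s.2)⟩ * n₀) =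
      long P (Set.univ : Set P.S) := by
    show wc P ⟨(s : G) * s, mul_mem (P.subset s.2) (P.subset s.2)⟩ * wc P n₀ = _
    rw [(wc_eq_one_iff P).2 (show _ ∈ P.B from P.sq_mem s s.2), one_mul, hn₀]
  have hflip := d.flip s _ hn₀' u₂ hu₂
  have key : (s : G) * d.par s b * n₀ = u₁ * ((d.hh s b * ((s : G) * s)) * n₀) *
      (((s : G)⁻¹ * ((s : G) * s * n₀))⁻¹ * u₂ * ((s : G)⁻¹ * ((s : G) * s * n₀))) := by
    rw [show (s : G) * d.par s b * n₀ = ((s : G) * d.par s b * (s : G)⁻¹) * s * n₀ by group, e]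
    group
  have hnt : ∀ u ∈ U, (n : G) * (d.hh s b * ((s : G) * s)) * (n : G)⁻¹ * u *
      ((n : G) * (d.hh s b * ((s : G) * s)) * (n : G)⁻¹)⁻¹ ∈ U :=
    (h.torus_normal ⟨P.conj_mem _ n.2 _ ht, mul_mem (mul_mem n.2 ht.2) (P.N.inv_mem n.2)⟩).1
  have hnt' : ∀ u ∈ U, ((n : G) * (d.hh s b * ((s : G) * s)) * (n : G)⁻¹)⁻¹ * u *
      ((n : G) * (d.hh s b * ((s : G) * s)) * (n : G)⁻¹) ∈ U :=
    (h.torus_normal ⟨P.conj_mem _ n.2 _ ht, mul_mem (mul_mem n.2 ht.2) (P.N.inv_mem n.2)⟩).2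
  have e1 : dl R ((n : G) * (d.hh s b * ((s : G) * s)) * (n : G)⁻¹) * tsum' R U (n : G) =
      tsum' R U (n : G) * dl R (d.hh s b * ((s : G) * s)) := by
    rw [tsum_torus_left hnt hnt', tsum_torus_right (h.torus_normal ht).1 (h.torus_normal ht).2,
      inv_mul_cancel_right]
  calc dl R ((n : G) * (d.hh s b * ((s : G) * s)) * (n : G)⁻¹) *
        (tsum' R U (n : G) * dl R (n₀ : G) * esum R U)
      = tsum' R U (n : G) * dl R (d.hh s b * ((s : G) * s) * n₀) * esum R U := by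
        rw [← mul_assoc, ← mul_assoc, e1, mul_assoc (tsum' R U (n : G)), dl_mul]
    _ = tsum' R U (n : G) * dl R ((s : G) * d.par s b * n₀) * esum R U := by
        obtain ⟨c, hc⟩ : ∃ c, c = ((s : G)⁻¹ * ((s : G) * s * n₀))⁻¹ * u₂ *
            ((s : G)⁻¹ * ((s : G) * s * n₀)) := ⟨_, rfl⟩
        have hcU : c ∈ U := hc ▸ hflip
        rw [key, ← hc, ← dl_mul _ c, ← dl_mul u₁, ← mul_assoc (tsum' R U (n : G)),
          ← mul_assoc (tsum' R U (n : G)), tsum_mul_dl hu₁,
          mul_assoc _ (dl R c), dl_mul_esum hcU]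
    _ = _ := by rw [← dl_mul ((s : G) * d.par s b), ← mul_assoc]

/-- along a reduced word, with the factor of its first letter on the right -/
theorem tsum_word (d : RankOne P U ι) (h : Split P p U) (hR : (p : R) = 0) {n₀ : P.N}
    (hn₀ : wc P n₀ = long P (Set.univ : Set P.S)) : ∀ L : List P.S, IsReducedWord (sref P) L →
      ∃ n : P.N, wc P n = wprod (sref P) L ∧ ∃ H ∈ torSpan R P,
        tsum' R U (n : G) * dl R (n₀ : G) * esum R U = H * (esum R U * dl R (n₀ : G) * esum R U) ∧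
        (L = [] → (n : G) = 1) ∧ ∀ s L', L = s :: L' → ∃ H', H = H' * d.hs R s ∧ H' ∈ torSpan R P := by
  intro L
  induction L using List.reverseRecOn with
  | nil =>
    intro _
    refine ⟨1, rfl, 1, Submodule.subset_span ⟨1, one_mem _, rfl⟩, ?_, fun _ => rfl,
      fun s L' e => absurd e (by simp)⟩
    rw [one_mul, Subgroup.coe_one, tsum_one]
  | append_singleton L s ih =>
    intro hr
    have hrL := (invGen P).isReduced_left hr
    obtain ⟨n, hn, H, hH, e, hnil, hhead⟩ := ih hrL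
    have hl : wlen (sref P) (wc P n * sref P s) = wlen (sref P) (wc P n) + 1 := by
      unfold IsReducedWord at hr hrL
      rw [wprod_append, wprod_cons, wprod_nil, mul_one, List.length_append] at hr
      rw [hn, ← hr, ← hrL]
      rfl
    obtain ⟨H₁, hH₁, hfirst, e₁⟩ := d.tsum_step h hR s hl hn₀
    refine ⟨n * ⟨(s : G), P.subset s.2⟩, ?_, H₁ * H, torSpan_mul hH₁ hH, ?_, fun h0 => absurd h0 (by simp), ?_⟩
    · show wc P n * sref P s = _
      rw [hn, wprod_append, wprod_cons, wprod_nil, mul_one]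
    · show tsum' R U ((n : G) * s) * _ * _ = _
      rw [e₁, e]; simp only [mul_assoc]
    · intro s' L' hL'
      cases L with
      | nil =>
        simp only [List.nil_append, List.cons.injEq] at hL'
        rw [← hL'.1, hfirst (by rw [hn, wprod_nil]) (hnil rfl)]
        refine ⟨H, ?_, hH⟩
        have hcomm : ∀ x ∈ torSpan R P, ∀ y ∈ torSpan R P, x * y = y * x := by
          intro x hx y hy
          induction hx using Submodule.span_induction with
          | mem a ha =>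
            obtain ⟨t, ht, rfl⟩ := ha
            induction hy using Submodule.span_induction with
            | mem b hb => obtain ⟨t', ht', rfl⟩ := hb; rw [dl_mul, dl_mul, d.comm t ht t' ht']
            | zero => rw [mul_zero, zero_mul]
            | add a b _ _ iha ihb => rw [mul_add, add_mul, iha, ihb]
            | smul c a _ iha => rw [mul_smul_comm, smul_mul_assoc, iha]
          | zero => rw [mul_zero, zero_mul]
          | add a b _ _ iha ihb => rw [mul_add, add_mul, iha, ihb]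
          | smul c a _ iha => rw [mul_smul_comm, smul_mul_assoc, iha]
        exact hcomm _ (d.hs_mem s) _ hH
      | cons a L =>
        simp only [List.cons_append, List.cons.injEq] at hL'
        obtain ⟨H', rfl, hH'⟩ := hhead a L rfl
        rw [← hL'.1]
        exact ⟨H₁ * H', by rw [mul_assoc], torSpan_mul hH₁ hH'⟩

/-- the torus fixes `T(n₀) n₀ e` -/
theorem torus_fixes (d : RankOne P U ι) (h : Split P p U) (hR : (p : R) = 0) {n₀ : P.N}
    (hn₀ : wc P n₀ = long P (Set.univ : Set P.S)) {t : G} (ht : t ∈ P.B ⊓ P.N) :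
    dl R t * (tsum' R U (n₀ : G) * dl R (n₀ : G) * esum R U) =
      tsum' R U (n₀ : G) * dl R (n₀ : G) * esum R U := by
  set Pz := tsum' R U (n₀ : G) * dl R (n₀ : G) * esum R U
  have hgen : ∀ (s : P.S), ∀ t ∈ d.K s, dl R t * Pz = Pz := by
    intro s t htK
    obtain ⟨L, hL, hLe⟩ := (invGen P).exists_reduced (sref P s * long P (Set.univ : Set P.S))
    have hadd := long_add (P := P) (J := (Set.univ : Set P.S)) (mem_Wp_univ (sref P s))
    rw [mul_inv_cancel_left, (invGen P).inv_eq] at hadd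
    have hr : IsReducedWord (sref P) (s :: L) := by
      unfold IsReducedWord
      rw [wprod_cons, hLe, ← mul_assoc, sref_mul_self, one_mul, hadd, List.length_cons, hL]
      have h1 := (invGen P).wlen_sigma_le s
      rcases Nat.eq_zero_or_pos (wlen (sref P) (sref P s)) with h0 | h0
      · exact absurd ((invGen P).wlen_eq_zero.1 h0) (sref_ne_one s)
      · omega
    obtain ⟨n, hn, H, -, e, -, hhead⟩ := d.tsum_word h hR hn₀ _ hr
    obtain ⟨H', rfl, hH'⟩ := hhead s L rfl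
    have htB : t ∈ P.B ⊓ P.N := d.K_le s htK
    have hfix : dl R t * (tsum' R U (n : G) * dl R (n₀ : G) * esum R U) =
        tsum' R U (n : G) * dl R (n₀ : G) * esum R U := by
      rw [e, ← mul_assoc]
      congr 1
      have hc : dl R t * H' = H' * dl R t := by
        clear e hhead
        induction hH' using Submodule.span_induction with
        | mem b hb => obtain ⟨t', ht', rfl⟩ := hb; rw [dl_mul, dl_mul, d.comm t htB t' ht']
        | zero => rw [mul_zero, zero_mul]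
        | add a b _ _ iha ihb => rw [mul_add, add_mul, iha, ihb]
        | smul c a _ iha => rw [mul_smul_comm, smul_mul_assoc, iha]
      rw [← mul_assoc, hc, mul_assoc, d.shift_hs htK]
    have hwn : wc P n = wc P n₀ := by
      rw [hn, wprod_cons, hLe, ← mul_assoc, sref_mul_self, one_mul, hn₀]
    have hB : (n₀ : G) * (n : G)⁻¹ ∈ P.B ⊓ P.N := by
      refine ⟨?_, mul_mem n₀.2 (P.N.inv_mem n.2)⟩
      refine (wc_eq_one_iff P (n := n₀ * n⁻¹)).1 ?_
      show wc P n₀ * (wc P n)⁻¹ = 1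
      rw [hwn, mul_inv_cancel]
    have e2 : Pz = dl R ((n₀ : G) * (n : G)⁻¹) * (tsum' R U (n : G) * dl R (n₀ : G) * esum R U) := by
      rw [← mul_assoc, ← mul_assoc, tsum_torus_left (h.torus_normal hB).1 (h.torus_normal hB).2,
        inv_mul_cancel_right]
    rw [e2, ← mul_assoc, dl_mul, d.comm t htB _ hB, ← dl_mul, mul_assoc, hfix]
  have := d.gen ht
  induction this using Subgroup.closure_induction with
  | mem x hx =>
    obtain ⟨s, hs⟩ := Set.mem_iUnion.1 hx
    exact hgen s x hs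
  | one => rw [dl_one, one_mul]
  | mul x y hx hy ihx ihy =>
    have hxT : x ∈ P.B ⊓ P.N := (Subgroup.closure_le _).2 (Set.iUnion_subset d.K_le) hx
    have hyT : y ∈ P.B ⊓ P.N := (Subgroup.closure_le _).2 (Set.iUnion_subset d.K_le) hy
    rw [← dl_mul, mul_assoc, ihy hyT, ihx hxT]
  | inv x hx ihx =>
    have hxT : x ∈ P.B ⊓ P.N := (Subgroup.closure_le _).2 (Set.iUnion_subset d.K_le) hx
    conv_lhs => rw [← ihx hxT, ← mul_assoc, dl_mul, inv_mul_cancel, dl_one, one_mul]

theorem free_cell (h : Split P p U) {n₀ : P.N} (hn₀ : wc P n₀ = long P (Set.univ : Set P.S)) {t t' u v u' v' : G}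
    (ht : t ∈ P.B ⊓ P.N) (ht' : t' ∈ P.B ⊓ P.N) (hu : u ∈ U) (hv : v ∈ U) (hu' : u' ∈ U) (hv' : v' ∈ U)
    (e : u * (t * n₀) * v = u' * (t' * n₀) * v') : u = u' ∧ t = t' ∧ v = v' := by
  have hinv : (long P (Set.univ : Set P.S))⁻¹ = long P (Set.univ : Set P.S) := by
    refine long_eq (mem_Wp_univ _) fun i _ => ?_
    rw [← (invGen P).inv_eq, ← mul_inv_rev, (invGen P).wlen_inv, (invGen P).wlen_inv]
    have := long_add (P := P) (J := (Set.univ : Set P.S)) (mem_Wp_univ (sref P i))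
    rw [mul_inv_cancel_left, (invGen P).inv_eq] at this
    rcases Nat.eq_zero_or_pos (wlen (sref P) (sref P i)) with h0 | h0
    · exact absurd ((invGen P).wlen_eq_zero.1 h0) (sref_ne_one i)
    · omega
  have hd : (n₀ : G) * (v' * v⁻¹) * (n₀ : G)⁻¹ ∈ P.B := by
    have e' : (n₀ : G) * (v' * v⁻¹) * (n₀ : G)⁻¹ = t'⁻¹ * u'⁻¹ * u * t := by
      have h2 : v' = (n₀ : G)⁻¹ * t'⁻¹ * u'⁻¹ * (u * (t * n₀) * v) := by rw [e]; group
      rw [h2]; group
    rw [e']
    exact mul_mem (mul_mem (mul_mem (inv_mem ht'.1) (inv_mem (h.le hu'))) (h.le hu)) ht.1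
  have hv1 : v' * v⁻¹ = 1 := by
    have hm : v' * v⁻¹ ∈ U := mul_mem hv' (inv_mem hv)
    refine (Subgroup.eq_bot_iff_forall _).1 h.fixN_univ_inf _ ⟨?_, hm⟩
    rw [Finset.coe_univ]
    refine mem_fixN_of_long (n₀ := n₀⁻¹) ?_ (h.le hm) ?_
    · show (wc P n₀)⁻¹ = _
      rw [hn₀, hinv]
    · show ((v' * v⁻¹ * (n₀ : G)⁻¹ : G) : G ⧸ P.B) = _
      rw [QuotientGroup.eq]
      simpa [mul_assoc] using inv_mem hd
  obtain rfl := (mul_inv_eq_one.1 hv1).symm
  have e3 : u * t = u' * t' := by simpa [← mul_assoc] using e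
  have hmem : u'⁻¹ * u ∈ P.N := by
    have : u'⁻¹ * u = t' * t⁻¹ := by
      rw [show t' = u'⁻¹ * (u * t) by rw [e3]; group]; group
    rw [this]; exact mul_mem ht'.2 (inv_mem ht.2)
  have h1 := h.disj _ (mul_mem (inv_mem hu') hu) hmem
  obtain rfl := (inv_mul_eq_one.1 h1).symm
  exact ⟨rfl, mul_left_cancel e3, rfl⟩

theorem tsum_long (h : Split P p U) {n₀ : P.N} (hn₀ : wc P n₀ = long P (Set.univ : Set P.S)) :
    tsum' R U (n₀ : G) = esum R U * dl R (n₀ : G) * esum R U := by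
  rw [esum, Finset.sum_mul, Finset.sum_mul_sum, ← Finset.sum_product']
  simp only [dl_mul]
  symm
  refine Finset.sum_bij (fun a _ => (a.1 : G) * n₀ * a.2)
    (fun a _ => mem_dset.2 ⟨a.1, a.1.2, a.2, a.2.2, rfl⟩) ?_ ?_ (fun a _ => rfl)
  · intro a _ a' _ e
    obtain ⟨e1, -, e2⟩ := free_cell h hn₀ (one_mem _) (one_mem _) a.1.2 a.2.2 a'.1.2 a'.2.2
      (show (a.1 : G) * (1 * (n₀ : G)) * a.2 = (a'.1 : G) * (1 * (n₀ : G)) * a'.2 by simpa using e)
    exact Prod.ext (Subtype.ext e1) (Subtype.ext e2)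
  · intro g hg
    obtain ⟨u, hu, v, hv, rfl⟩ := mem_dset.1 hg
    exact ⟨(⟨u, hu⟩, ⟨v, hv⟩), Finset.mem_product.2 ⟨Finset.mem_univ _, Finset.mem_univ _⟩, rfl⟩

/-- `c e` for a central element supported on classes of defect zero -/
theorem central_esum (h : Split P p U) (hR : (p : R) = 0) {n₀ : P.N}
    (hn₀ : wc P n₀ = long P (Set.univ : Set P.S)) {c : MonoidAlgebra R G} (hc : IsClassElt c)
    (hsupp : ∀ g : G, c.coeff g ≠ 0 → ∀ x : G, x * g = g * x → (∃ k, orderOf x = p ^ k) → x = 1) :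
    ∃ a : (P.B ⊓ P.N : Subgroup G) → R,
      c * esum R U = ∑ t : (P.B ⊓ P.N : Subgroup G), a t • (dl R (t : G) * tsum' R U (n₀ : G)) := by
  refine ⟨fun t => (c * esum R U).coeff ((t : G) * n₀), gr_ext fun g => ?_⟩
  have hinvR : ∀ g v : G, v ∈ U → (c * esum R U).coeff (g * v) = (c * esum R U).coeff g := by
    intro g v hv
    conv_lhs => rw [← esum_mul_dl (R := R) hv, ← mul_assoc, coeff_mul_dl, mul_inv_cancel_right]
  have hinvL : ∀ g v : G, v ∈ U → (c * esum R U).coeff (v * g) = (c * esum R U).coeff g := by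
    intro g v hv
    conv_lhs => rw [← dl_mul_esum (R := R) hv, ← mul_assoc, isClassElt_iff_of_commute.1 hc (dl R v),
      mul_assoc, coeff_dl_mul, inv_mul_cancel_left]
  have hTc : ∀ (t : (P.B ⊓ P.N : Subgroup G)) (g : G),
      (dl R (t : G) * tsum' R U (n₀ : G)).coeff g = if g ∈ dset U ((t : G) * n₀) then 1 else 0 := by
    intro t g
    rw [tsum_torus_left (h.torus_normal t.2).1 (h.torus_normal t.2).2, tsum', gr_sum_apply]
    simp [dl, Finsupp.single_apply]
  rw [gr_sum_apply]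
  simp only [MonoidAlgebra.coeff_smul, Finsupp.smul_apply, smul_eq_mul, hTc, mul_ite, mul_one, mul_zero]
  by_cases hbig : cl P (g : G ⧸ P.B) = long P ((Finset.univ : Finset P.S) : Set P.S)
  · rw [Finset.coe_univ, ← hn₀] at hbig
    obtain ⟨b₁, hb₁, b₂, hb₂, rfl⟩ := InC.iff_rep.1 (hbig ▸ cl_spec g)
    obtain ⟨u₁, hu₁, t₁, ht₁, rfl⟩ := h.decomp b₁ hb₁
    obtain ⟨u₂, hu₂, t₂, ht₂, rfl⟩ := h.decomp b₂ hb₂
    have ht₂' : (n₀ : G) * t₂ * (n₀ : G)⁻¹ ∈ P.B ⊓ P.N :=
      ⟨P.conj_mem _ n₀.2 _ ht₂, mul_mem (mul_mem n₀.2 ht₂.2) (P.N.inv_mem n₀.2)⟩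
    set t : (P.B ⊓ P.N : Subgroup G) :=
      ⟨t₁ * ((n₀ : G) * t₂ * (n₀ : G)⁻¹), mul_mem ht₁ ht₂'⟩ with htdef
    have eg : u₁ * t₁ * n₀ * (u₂ * t₂) = u₁ * ((t : G) * n₀) * (t₂⁻¹ * u₂ * t₂) := by
      simp only [htdef]; group
    rw [eg, hinvR _ _ ((h.torus_normal ht₂).2 u₂ hu₂), hinvL _ _ hu₁, Finset.sum_eq_single t]
    · rw [if_pos (mem_dset.2 ⟨u₁, hu₁, _, (h.torus_normal ht₂).2 u₂ hu₂, rfl⟩)]
    · intro t' _ hne
      rw [if_neg]
      intro hmem
      obtain ⟨u, hu, v, hv, e⟩ := mem_dset.1 hmem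
      exact hne (Subtype.ext (free_cell h hn₀ t.2 t'.2 hu₁ ((h.torus_normal ht₂).2 u₂ hu₂) hu hv e).2.1.symm)
    · exact fun hh => absurd (Finset.mem_univ _) hh
  · rw [Finset.sum_eq_zero fun t _ => by
      rw [if_neg]
      intro hmem
      obtain ⟨u, hu, v, hv, rfl⟩ := mem_dset.1 hmem
      refine hbig ?_
      rw [Finset.coe_univ, ← hn₀]
      exact cl_eq (InC.iff_rep.2 ⟨u * (t : G), mul_mem (h.le hu) t.2.1, v, h.le hv, by group⟩)]
    obtain ⟨u, hu, hu1, hug⟩ := h.exists_inter hbig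
    rw [esum, Finset.mul_sum, gr_sum_apply]
    simp only [coeff_mul_dl]
    obtain ⟨k, hk⟩ := h.pel_of_mem hu
    letI : MulAction (Subgroup.zpowers u) U :=
      { smul := fun i w => ⟨(i : G) * w * (g⁻¹ * (i : G)⁻¹ * g), by
          refine mul_mem (mul_mem (Subgroup.zpowers_le.2 hu i.2) w.2) ?_
          obtain ⟨m, hm⟩ := Subgroup.mem_zpowers_iff.1 i.2
          have : g⁻¹ * (i : G)⁻¹ * g = (g⁻¹ * u * g) ^ (-m) := by
            rw [show g⁻¹ * u * g = MulAut.conj g⁻¹ u by simp, ← map_zpow, zpow_neg, hm]; simp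
          rw [this]; exact zpow_mem hug _⟩
        one_smul := fun w => Subtype.ext (by
          show ((1 : Subgroup.zpowers u) : G) * (w : G) * _ = (w : G)
          simp)
        mul_smul := fun i j w => Subtype.ext (by
          show ((i * j : Subgroup.zpowers u) : G) * (w : G) * _ = (i : G) * ((j : G) * (w : G) * _) * _
          simp only [Subgroup.coe_mul]
          group) }
    have hP : IsPGroup p (Subgroup.zpowers u) := IsPGroup.of_card (n := k) (by rw [Nat.card_zpowers, hk])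
    have hsm : ∀ (i : Subgroup.zpowers u) (w : U),
        g * ((i • w : U) : G)⁻¹ = (i : G) * (g * (w : G)⁻¹) * (i : G)⁻¹ := by
      intro i w
      show g * ((i : G) * (w : G) * (g⁻¹ * (i : G)⁻¹ * g))⁻¹ = _
      group
    rw [Cfsg.Lib.Blocks.sum_eq_sum_fixed hP hR (fun w : U => c.coeff (g * (w : G)⁻¹))
      (fun i w => by rw [hsm]; exact hc _ _)]
    refine Finset.sum_eq_zero fun w hw => ?_
    by_contra hne
    have h2 := congrArg (fun w : U => g * (w : G)⁻¹)
      ((Finset.mem_filter.1 hw).2 ⟨u, Subgroup.mem_zpowers u⟩)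
    simp only [hsm] at h2
    exact hu1 (hsupp _ hne u (mul_inv_eq_iff_eq_mul.1 h2) ⟨k, hk⟩)

/-- the product of two central elements on the sum over `U` -/
theorem central_mul_esum (d : RankOne P U ι) (h : Split P p U) (hR : (p : R) = 0) {n₀ : P.N}
    (hn₀ : wc P n₀ = long P (Set.univ : Set P.S)) {c c' : MonoidAlgebra R G} (hc : IsClassElt c)
    {a a' : (P.B ⊓ P.N : Subgroup G) → R}
    (ha : c * esum R U = ∑ t : (P.B ⊓ P.N : Subgroup G), a t • (dl R (t : G) * tsum' R U (n₀ : G)))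
    (ha' : c' * esum R U = ∑ t : (P.B ⊓ P.N : Subgroup G), a' t • (dl R (t : G) * tsum' R U (n₀ : G))) :
    c * c' * esum R U = ((∑ t, a t) * ∑ t, a' t) • (tsum' R U (n₀ : G) * dl R (n₀ : G) * esum R U) := by
  set Pz := tsum' R U (n₀ : G) * dl R (n₀ : G) * esum R U with hPz
  have h1 : c * tsum' R U (n₀ : G) = (∑ t, a t) • Pz := by
    rw [tsum_long h hn₀, ← mul_assoc, ← mul_assoc, ha, Finset.sum_mul, Finset.sum_mul, Finset.sum_smul]
    refine Finset.sum_congr rfl fun t _ => ?_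
    rw [smul_mul_assoc, smul_mul_assoc, mul_assoc (dl R (t : G)), mul_assoc (dl R (t : G)), ← hPz,
      d.torus_fixes h hR hn₀ t.2]
  rw [mul_assoc, ha', Finset.mul_sum, Finset.mul_sum, Finset.sum_smul]
  refine Finset.sum_congr rfl fun t _ => ?_
  rw [mul_smul_comm, ← mul_assoc, isClassElt_iff_of_commute.1 hc (dl R (t : G)), mul_assoc, h1, mul_smul_comm,
    d.torus_fixes h hR hn₀ t.2, smul_smul, mul_comm]

end RankOne

/-- a central idempotent does not kill the sum over a `p`-subgroup -/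
theorem idem_mul_esum_ne_zero [Fact p.Prime] (hR : (p : R) = 0) (hU : IsPGroup p U) {E : MonoidAlgebra R G}
    (hE : IsClassElt E) (hEE : E * E = E) (hne : E ≠ 0) : E * esum R U ≠ 0 := by
  classical
  intro h0
  set gens : Set (MonoidAlgebra R G) := Set.range fun u : U => dl R (u : G) * E
  set V : AddSubgroup (MonoidAlgebra R G) := AddSubgroup.closure gens
  have hp0 : ∀ x : MonoidAlgebra R G, p • x = 0 := by
    intro x; rw [← Nat.cast_smul_eq_nsmul R, hR, zero_smul]
  haveI : AddGroup.FG V := by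
    rw [AddGroup.fg_iff_addSubgroup_fg]
    exact ⟨(Set.finite_range fun u : U => dl R (u : G) * E).toFinset, by simp [V, gens]⟩
  haveI : Finite V := AddCommGroup.finite_of_fg_torsion V fun v =>
    isOfFinAddOrder_iff_nsmul_eq_zero.2 ⟨p, (Fact.out : p.Prime).pos, Subtype.ext (hp0 _)⟩
  have hEv : ∀ v ∈ V, E * v = v := by
    intro v hv
    induction hv using AddSubgroup.closure_induction with
    | mem x hx =>
      obtain ⟨u, rfl⟩ := hx
      rw [← mul_assoc, isClassElt_iff_of_commute.1 hE (dl R (u : G)), mul_assoc, hEE]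
    | zero => rw [mul_zero]
    | add a b _ _ iha ihb => rw [mul_add, iha, ihb]
    | neg a _ iha => rw [mul_neg, iha]
  have hstab : ∀ (i : U) (v : MonoidAlgebra R G), v ∈ V → dl R (i : G) * v ∈ V := by
    intro i v hv
    induction hv using AddSubgroup.closure_induction with
    | mem x hx =>
      obtain ⟨u, rfl⟩ := hx
      refine AddSubgroup.subset_closure ⟨i * u, ?_⟩
      rw [← mul_assoc, dl_mul]; rfl
    | zero => rw [mul_zero]; exact zero_mem _
    | add a b _ _ iha ihb => rw [mul_add]; exact add_mem iha ihb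
    | neg a _ iha => rw [mul_neg]; exact neg_mem iha
  letI : MulAction U V :=
    { smul := fun i v => ⟨dl R (i : G) * v, hstab i v v.2⟩
      one_smul := fun v => Subtype.ext (by
        show dl R ((1 : U) : G) * (v : MonoidAlgebra R G) = v
        rw [Subgroup.coe_one, dl_one, one_mul])
      mul_smul := fun i j v => Subtype.ext (by
        show dl R ((i * j : U) : G) * (v : MonoidAlgebra R G) = dl R (i : G) * (dl R (j : G) * v)
        rw [Subgroup.coe_mul, ← dl_mul, mul_assoc]) }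
  have hEV : E ∈ V := AddSubgroup.subset_closure ⟨1, by simp [dl_one]⟩
  have hdvd : p ∣ Nat.card V := by
    have h1 : addOrderOf (⟨E, hEV⟩ : V) = p :=
      addOrderOf_eq_prime (Subtype.ext (hp0 _)) (fun e => hne (congrArg Subtype.val e))
    exact h1 ▸ addOrderOf_dvd_natCard _
  have hzero : (0 : V) ∈ MulAction.fixedPoints U V := fun i => Subtype.ext (by
    show dl R (i : G) * (0 : MonoidAlgebra R G) = 0
    rw [mul_zero])
  obtain ⟨w, hw, hw0⟩ := hU.exists_fixed_point_of_prime_dvd_card_of_fixed_point V hdvd hzero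
  have hfix : ∀ u ∈ U, ∀ g, (w : MonoidAlgebra R G).coeff (u * g) = (w : MonoidAlgebra R G).coeff g := by
    intro u hu g
    have e : dl R u * (w : MonoidAlgebra R G) = w := congrArg Subtype.val (hw ⟨u, hu⟩)
    conv_lhs => rw [← e, coeff_dl_mul, inv_mul_cancel_left]
  have key : (w : MonoidAlgebra R G) = esum R U *
      ∑ q : Quotient (QuotientGroup.rightRel U), (w : MonoidAlgebra R G).coeff q.out • dl R q.out := by
    have hw' : (w : MonoidAlgebra R G) = ∑ g : G, (w : MonoidAlgebra R G).coeff g • dl R g :=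
      gr_ext fun c => by simp [gr_sum_apply, dl, Finsupp.single_apply]
    conv_lhs => rw [hw']
    rw [esum, Finset.sum_mul_sum, ← Finset.sum_product']
    refine (Finset.sum_bij (fun a _ => (a.1 : G) * a.2.out) (fun a _ => Finset.mem_univ _) ?_ ?_ ?_).symm
    · intro a _ a' _ e
      have h2 : a.2 = a'.2 := by
        rw [← Quotient.out_eq a.2, ← Quotient.out_eq a'.2]
        refine Quotient.sound (QuotientGroup.rightRel_apply.2 ?_)
        have e2 : a'.2.out * a.2.out⁻¹ = (a'.1 : G)⁻¹ * a.1 := by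
          rw [eq_inv_mul_iff_mul_eq, ← mul_assoc, ← e, mul_inv_cancel_right]
        rw [e2]
        exact mul_mem (inv_mem a'.1.2) a.1.2
      rw [h2] at e
      exact Prod.ext (Subtype.ext (mul_right_cancel e)) h2
    · intro g _
      obtain ⟨q, hq⟩ : ∃ q : Quotient (QuotientGroup.rightRel U), q = Quotient.mk'' g := ⟨_, rfl⟩
      have h1 : g * q.out⁻¹ ∈ U :=
        QuotientGroup.rightRel_apply.1 (Quotient.exact' (a := q.out) (b := g) (by rw [Quotient.out_eq', hq]))
      exact ⟨(⟨g * q.out⁻¹, h1⟩, q), Finset.mem_product.2 ⟨Finset.mem_univ _, Finset.mem_univ _⟩,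
        inv_mul_cancel_right g _⟩
    · intro a _
      show dl R (a.1 : G) * _ = (w : MonoidAlgebra R G).coeff _ • _
      rw [mul_smul_comm, dl_mul, hfix _ a.1.2]
  refine hw0 (Subtype.ext ?_)
  show (0 : MonoidAlgebra R G) = _
  rw [← hEv _ w.2, key, ← mul_assoc, h0, zero_mul]

section Unique

open Cfsg.Lib.Blocks

variable [Fintype P.S] [Fact p.Prime] {ι : Type*} [Fintype ι]

/-- at most one irreducible character has defect zero -/
theorem defectZero_unique (d : RankOne P U ι) (h : Split P p U) {χ ψ : Cfsg.IrrCharacter G}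
    (hχ : (Cfsg.charDegree (χ : G → ℂ)).factorization p = (Nat.card G).factorization p)
    (hψ : (Cfsg.charDegree (ψ : G → ℂ)).factorization p = (Nat.card G).factorization p) : χ = ψ := by
  obtain ⟨M, hM⟩ := exists_isPModular p
  haveI : M.IsPrime := Ideal.IsMaximal.isPrime hM.2.1
  have hR : (p : ResF M) = 0 := red_p hM
  obtain ⟨n₀, hn₀⟩ := QuotientGroup.mk_surjective (long P (Set.univ : Set P.S))
  have hn₀' : wc P n₀ = long P (Set.univ : Set P.S) := hn₀
  have data : ∀ φ : Cfsg.IrrCharacter G,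
      (Cfsg.charDegree (φ : G → ℂ)).factorization p = (Nat.card G).factorization p →
        Cfsg.blockOf M (φ : G → ℂ) = {φ} ∧ Cfsg.IsPBlock M (Cfsg.blockOf M (φ : G → ℂ)) ∧
        bIdem M (Cfsg.blockOf M (φ : G → ℂ)) * esum (ResF M) U ≠ 0 ∧
        ∃ a : (P.B ⊓ P.N : Subgroup G) → ResF M, bIdem M (Cfsg.blockOf M (φ : G → ℂ)) * esum (ResF M) U =
          ∑ t : (P.B ⊓ P.N : Subgroup G), a t • (dl (ResF M) (t : G) * tsum' (ResF M) U (n₀ : G)) := by
    intro φ hφ
    have hs := blockOf_eq_singleton hM φ hφ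
    have hB : Cfsg.IsPBlock M (Cfsg.blockOf M (φ : G → ℂ)) := ⟨φ, rfl⟩
    obtain ⟨D, hD⟩ := exists_defectGroup hM hB
    have hD0 : D = ⊥ := by
      refine defectGroup_eq_bot_of_lam_pTorsSum hM hB (mem_blockOf_self M φ) ?_ hD
      rw [lam_pTorsSum_of_defectZero hM fun x hx => eq_zero_of_defectZero hM φ hs (hx ▸ dvd_rfl)]
      exact one_ne_zero
    refine ⟨hs, hB, idem_mul_esum_ne_zero (p := p) hR h.pgroup (isClassElt_bIdem _) (bIdem_sq hB) ?_,
      RankOne.central_esum h hR hn₀' (isClassElt_bIdem _) ?_⟩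
    · intro h0
      have h1 := lam_bIdem hB φ
      rw [if_pos (mem_blockOf_self M φ), lam_eq_zero_of_support φ fun g hg => absurd (by rw [h0]; simp) hg] at h1
      exact zero_ne_one h1
    · intro g hg x hcomm hord
      obtain ⟨k, hk⟩ := hord
      obtain ⟨y, hy⟩ := (brNe_bIdem_iff hM hB hD (P := Subgroup.zpowers x)
        (IsPGroup.of_card (n := k) (by rw [Nat.card_zpowers, hk]))).1
        ⟨g, by
          rw [centralizer_zpowers, Subgroup.mem_centralizer_singleton_iff]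
          exact hcomm.symm, hg⟩
      rw [hD0, le_bot_iff, Cfsg.Lib.Blocks.conjSub, Subgroup.map_eq_bot_iff_of_injective _
        (MulEquiv.injective _), Subgroup.zpowers_eq_bot] at hy
      exact hy
  obtain ⟨hsχ, hBχ, hnχ, a, ha⟩ := data χ hχ
  obtain ⟨hsψ, hBψ, hnψ, b, hb⟩ := data ψ hψ
  by_contra hne
  have hc : IsClassElt (bIdem M (Cfsg.blockOf M (χ : G → ℂ))) := isClassElt_bIdem _
  have h11 := RankOne.central_mul_esum d h hR hn₀' hc ha ha
  rw [bIdem_sq hBχ] at h11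
  have h22 := RankOne.central_mul_esum d h hR hn₀' (isClassElt_bIdem _) hb hb
  rw [bIdem_sq hBψ] at h22
  have h12 := RankOne.central_mul_esum d h hR hn₀' hc ha hb
  rw [bIdem_mul hBχ hBψ, if_neg (fun e => hne (Set.singleton_injective (hsχ.symm.trans (e.trans hsψ)))),
    zero_mul] at h12
  rcases smul_eq_zero.1 h12.symm with h0 | h0
  · rcases mul_eq_zero.1 h0 with h0 | h0
    · exact hnχ (by rw [h11, h0, zero_mul, zero_smul])
    · exact hnψ (by rw [h22, h0, zero_mul, zero_smul])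
  · exact hnχ (by rw [h11, h0, smul_zero])

end Unique

end Cfsg.Lib.LieBN
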