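/-
The Hecke algebra of a finite group with exchange condition at a real parameter `t ≥ 1`, realized by
operators on functions: the dimension of its centre does not depend on `t`.
-/
import Cfsg.Agent.Lib.LieBN.Coset
import Mathlib

set_option autoImplicit false
set_option linter.unusedSectionVars false

namespace Cfsg.Lib.LieBN.Hecke

open scoped Classical ComplexConjugate

variable {W : Type*} [Group W] [Fintype W] {ι : Type*} {σ : ι → W}

/-- left multiplication by a generator -/
noncomputable def hL (σ : ι → W) (t : ℝ) (i : ι) : Module.End ℂ (W → ℂ) where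
  toFun v x := if wlen σ (σ i * x) < wlen σ x then v (σ i * x) + ((t : ℂ) - 1) * v x else (t : ℂ) * v (σ i * x)
  map_add' u v := by ext x; simp only [Pi.add_apply]; split <;> ring
  map_smul' c v := by ext x; simp only [Pi.smul_apply, smul_eq_mul, RingHom.id_apply]; split <;> ring

theorem hL_apply (t : ℝ) (i : ι) (v : W → ℂ) (x : W) : hL σ t i v x =
    if wlen σ (σ i * x) < wlen σ x then v (σ i * x) + ((t : ℂ) - 1) * v x else (t : ℂ) * v (σ i * x) := rfl

/-- inversion -/
noncomputable def hJ (W : Type*) [Group W] : Module.End ℂ (W → ℂ) where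
  toFun v x := v x⁻¹
  map_add' _ _ := rfl
  map_smul' _ _ := rfl

theorem hJ_apply (v : W → ℂ) (x : W) : hJ W v x = v x⁻¹ := rfl

theorem hJ_mul_self : hJ W * hJ W = 1 := by
  refine LinearMap.ext fun v => funext fun x => ?_
  show v x⁻¹⁻¹ = v x
  rw [inv_inv]

/-- right multiplication by a generator -/
noncomputable def hR (σ : ι → W) (t : ℝ) (i : ι) : Module.End ℂ (W → ℂ) := hJ W * hL σ t i * hJ W

theorem hR_apply (h : Exch σ) (t : ℝ) (i : ι) (v : W → ℂ) (x : W) : hR σ t i v x =
    if wlen σ (x * σ i) < wlen σ x then v (x * σ i) + ((t : ℂ) - 1) * v x else (t : ℂ) * v (x * σ i) := by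
  show hL σ t i (hJ W v) x⁻¹ = _
  simp only [hL_apply, hJ_apply, mul_inv_rev, inv_inv, h.toInvGen.inv_eq]
  have e : σ i * x⁻¹ = (x * σ i)⁻¹ := by rw [mul_inv_rev, h.toInvGen.inv_eq]
  rw [e, h.wlen_inv', h.wlen_inv']

theorem square (h : Exch σ) {i j : ι} {x : W} (h1 : wlen σ (σ i * x * σ j) = wlen σ x)
    (h2 : wlen σ (σ i * x) = wlen σ (x * σ j)) : σ i * x = x * σ j := by
  have up : ∀ y : W, wlen σ (y * σ j) = wlen σ y + 1 → wlen σ (σ i * y) = wlen σ y + 1 →
      wlen σ (σ i * y * σ j) = wlen σ y → σ i * y = y * σ j := by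
    intro y ha hb hc
    obtain ⟨L, hL, rfl⟩ := h.toInvGen.exists_reduced y
    have e : wprod σ (L ++ [j]) = wprod σ L * σ j := by rw [wprod_append, wprod_cons, wprod_nil, mul_one]
    have hr : IsReducedWord σ (L ++ [j]) := by
      unfold IsReducedWord
      rw [List.length_append, e, ha, hL]; rfl
    obtain ⟨k, hk, ek⟩ := h.exch i (L ++ [j]) hr (by
      rw [e, ← mul_assoc, hc, List.length_append, ← hL]; simp)
    rw [List.length_append, List.length_singleton] at hk
    rcases Nat.lt_or_ge k L.length with hlt | hge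
    · exfalso
      rw [List.eraseIdx_append_of_lt_length hlt, wprod_append, wprod_append, wprod_cons, wprod_nil, mul_one, ← mul_assoc] at ek
      have e2 := mul_right_cancel ek
      have h3 := wlen_le (σ := σ) (L.eraseIdx k)
      have h4 := List.length_eraseIdx_of_lt hlt
      rw [← e2, hb] at h3
      omega
    · obtain rfl : k = L.length := by omega
      rw [List.eraseIdx_append_of_length_le le_rfl, Nat.sub_self, List.eraseIdx_cons_zero, List.append_nil, e,
        ← mul_assoc] at ek
      calc σ i * wprod σ L = σ i * wprod σ L * σ j * σ j := (h.toInvGen.mul_self_mul j _).symm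
        _ = wprod σ L * σ j := by rw [ek]
  rcases h.cases_len i x with hu | hd
  · exact up x (by omega) hu h1
  · have e1 := up (σ i * x) (by omega) (by rw [h.toInvGen.mul_mul_self]; omega)
      (by rw [h.toInvGen.mul_mul_self]; omega)
    rw [h.toInvGen.mul_mul_self] at e1
    calc σ i * x = σ i * x * σ j * σ j := (h.toInvGen.mul_self_mul j _).symm
      _ = x * σ j := by rw [← e1]

theorem hL_comm_hR (h : Exch σ) (t : ℝ) (i j : ι) : hL σ t i * hR σ t j = hR σ t j * hL σ t i := by
  refine LinearMap.ext fun v => funext fun x => ?_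
  show hL σ t i (hR σ t j v) x = hR σ t j (hL σ t i v) x
  simp only [hL_apply, hR_apply h, mul_assoc]
  have c1 := h.cases_len i x
  have c2 := h.cases_right x j
  have c3 := h.cases_len i (x * σ j)
  have c4 := h.cases_right (σ i * x) j
  rw [mul_assoc] at c4
  by_cases hk : wlen σ (σ i * x * σ j) = wlen σ x ∧ wlen σ (σ i * x) = wlen σ (x * σ j)
  · have e := square h hk.1 hk.2
    rw [← e]
  · rw [mul_assoc] at hk
    split_ifs <;> first | omega | ring

theorem hR_comm_hL (h : Exch σ) (t : ℝ) (i j : ι) : Commute (hR σ t j) (hL σ t i) := (hL_comm_hR h t i j).symm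

/-- the point function -/
noncomputable def dd (w : W) : W → ℂ := Pi.single w 1

theorem dd_apply (w x : W) : dd w x = if x = w then 1 else 0 := Pi.single_apply _ _ _

theorem hJ_dd (w : W) : hJ W (dd w) = dd w⁻¹ := by
  funext x
  simp only [hJ_apply, dd_apply, inv_eq_iff_eq_inv]

theorem hL_dd_up (h : Exch σ) (t : ℝ) {i : ι} {w : W} (hw : wlen σ w < wlen σ (σ i * w)) :
    hL σ t i (dd w) = dd (σ i * w) := by
  funext x
  rw [hL_apply]
  simp only [dd_apply]
  by_cases h1 : x = σ i * w
  · subst h1
    rw [h.toInvGen.mul_mul_self, if_pos hw, if_pos rfl, if_pos rfl,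
      if_neg (fun e => by rw [e] at hw; exact lt_irrefl _ hw)]
    ring
  · have h2 : σ i * x ≠ w := fun e => h1 (by rw [← e, h.toInvGen.mul_mul_self])
    rw [if_neg h1, if_neg h2]
    by_cases h3 : x = w
    · subst h3; rw [if_neg (by omega)]; ring
    · rw [if_neg h3]; split <;> ring

theorem hL_dd_down (h : Exch σ) (t : ℝ) {i : ι} {w : W} (hw : wlen σ (σ i * w) < wlen σ w) :
    hL σ t i (dd w) = ((t : ℂ) - 1) • dd w + (t : ℂ) • dd (σ i * w) := by
  funext x
  rw [hL_apply, Pi.add_apply, Pi.smul_apply, Pi.smul_apply, smul_eq_mul, smul_eq_mul]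
  simp only [dd_apply]
  by_cases h1 : x = σ i * w
  · subst h1
    rw [h.toInvGen.mul_mul_self, if_neg (by omega), if_pos rfl, if_pos rfl,
      if_neg (fun e => by rw [e] at hw; exact lt_irrefl _ hw)]
    ring
  · have h2 : σ i * x ≠ w := fun e => h1 (by rw [← e, h.toInvGen.mul_mul_self])
    rw [if_neg h1, if_neg h2]
    by_cases h3 : x = w
    · subst h3; rw [if_pos hw, if_pos rfl]; ring
    · rw [if_neg h3]; split <;> ring

/-- product of left multiplications along a word -/
noncomputable def opL (σ : ι → W) (t : ℝ) (L : List ι) : Module.End ℂ (W → ℂ) := (L.map (hL σ t)).prod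

/-- product of right multiplications along a word -/
noncomputable def opR (σ : ι → W) (t : ℝ) (L : List ι) : Module.End ℂ (W → ℂ) := (L.map (hR σ t)).prod

@[simp] theorem opL_nil (t : ℝ) : opL σ t [] = 1 := rfl
@[simp] theorem opR_nil (t : ℝ) : opR σ t [] = 1 := rfl
theorem opL_cons (t : ℝ) (i : ι) (L : List ι) : opL σ t (i :: L) = hL σ t i * opL σ t L := by simp [opL]
theorem opR_cons (t : ℝ) (i : ι) (L : List ι) : opR σ t (i :: L) = hR σ t i * opR σ t L := by simp [opR]
theorem opL_append (t : ℝ) (L L' : List ι) : opL σ t (L ++ L') = opL σ t L * opL σ t L' := by simp [opL]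
theorem opR_append (t : ℝ) (L L' : List ι) : opR σ t (L ++ L') = opR σ t L * opR σ t L' := by simp [opR]

theorem opR_eq (t : ℝ) (L : List ι) : opR σ t L = hJ W * opL σ t L * hJ W := by
  induction L with
  | nil => rw [opR_nil, opL_nil, mul_one, hJ_mul_self]
  | cons i L ih =>
    rw [opR_cons, opL_cons, ih, hR]
    simp only [mul_assoc]
    rw [← mul_assoc (hJ W) (hJ W), hJ_mul_self, one_mul]

theorem opL_dd (h : Exch σ) (t : ℝ) {L : List ι} (hr : IsReducedWord σ L) :
    opL σ t L (dd 1) = dd (wprod σ L) := by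
  induction L with
  | nil => simp
  | cons i L ih =>
    have hrL := h.toInvGen.isReduced_right (L := [i]) (M := L) hr
    rw [opL_cons, Module.End.mul_apply, ih hrL, hL_dd_up h t (by
      unfold IsReducedWord at hr hrL
      rw [wprod_cons, List.length_cons] at hr
      omega), wprod_cons]

theorem opR_dd (h : Exch σ) (t : ℝ) {L : List ι} (hr : IsReducedWord σ L) :
    opR σ t L (dd 1) = dd (wprod σ L)⁻¹ := by
  rw [opR_eq, Module.End.mul_apply, Module.End.mul_apply, hJ_dd, inv_one, opL_dd h t hr, hJ_dd]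

theorem opL_comm_hR (h : Exch σ) (t : ℝ) (L : List ι) (j : ι) : Commute (opL σ t L) (hR σ t j) := by
  induction L with
  | nil => exact Commute.one_left _
  | cons i L ih => rw [opL_cons]; exact (hR_comm_hL h t i j).symm.mul_left ih

theorem opR_comm_hL (h : Exch σ) (t : ℝ) (L : List ι) (i : ι) : Commute (opR σ t L) (hL σ t i) := by
  induction L with
  | nil => exact Commute.one_left _
  | cons j L ih => rw [opR_cons]; exact (hR_comm_hL h t i j).mul_left ih

/-- operators commuting with right multiplications are determined at the identity -/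
theorem determined (h : Exch σ) (t : ℝ) {f g : Module.End ℂ (W → ℂ)} (hf : ∀ j, Commute f (hR σ t j))
    (hg : ∀ j, Commute g (hR σ t j)) (e : f (dd 1) = g (dd 1)) : f = g := by
  have key : ∀ L : List ι, f (opR σ t L (dd 1)) = g (opR σ t L (dd 1)) := by
    intro L
    induction L with
    | nil => simpa using e
    | cons j L ih =>
      rw [opR_cons, Module.End.mul_apply, ← Module.End.mul_apply f, (hf j).eq, Module.End.mul_apply, ih,
        ← Module.End.mul_apply (hR σ t j), ← (hg j).eq, Module.End.mul_apply]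
  refine (Pi.basisFun ℂ W).ext fun w => ?_
  obtain ⟨L, hL, hLe⟩ := h.toInvGen.exists_reduced w⁻¹
  have hr : IsReducedWord σ L := by unfold IsReducedWord; rw [hLe, hL]
  have h1 := key L
  rw [opR_dd h t hr, hLe, inv_inv] at h1
  rw [Pi.basisFun_apply]
  exact h1

/-- a chosen reduced word -/
noncomputable def word (h : Exch σ) (w : W) : List ι := (h.toInvGen.exists_reduced w).choose

theorem wprod_word (h : Exch σ) (w : W) : wprod σ (word h w) = w := (h.toInvGen.exists_reduced w).choose_spec.2

theorem word_reduced (h : Exch σ) (w : W) : IsReducedWord σ (word h w) := by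
  unfold IsReducedWord
  rw [wprod_word]
  exact (h.toInvGen.exists_reduced w).choose_spec.1

/-- left multiplication by a basis element -/
noncomputable def Lw (h : Exch σ) (t : ℝ) (w : W) : Module.End ℂ (W → ℂ) := opL σ t (word h w)

/-- right multiplication by the inverse basis element -/
noncomputable def Rw (h : Exch σ) (t : ℝ) (w : W) : Module.End ℂ (W → ℂ) := hJ W * Lw h t w * hJ W

theorem Lw_dd (h : Exch σ) (t : ℝ) (w : W) : Lw h t w (dd 1) = dd w := by
  rw [Lw, opL_dd h t (word_reduced h w), wprod_word]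

theorem hL_Lw_up (h : Exch σ) (t : ℝ) {i : ι} {w : W} (hw : wlen σ w < wlen σ (σ i * w)) :
    hL σ t i * Lw h t w = Lw h t (σ i * w) :=
  determined h t (fun j => (hR_comm_hL h t i j).symm.mul_left (opL_comm_hR h t _ j)) (opL_comm_hR h t _) (by
    rw [Module.End.mul_apply, Lw_dd, Lw_dd, hL_dd_up h t hw])

theorem hL_Lw_down (h : Exch σ) (t : ℝ) {i : ι} {w : W} (hw : wlen σ (σ i * w) < wlen σ w) :
    hL σ t i * Lw h t w = ((t : ℂ) - 1) • Lw h t w + (t : ℂ) • Lw h t (σ i * w) :=
  determined h t (fun j => (hR_comm_hL h t i j).symm.mul_left (opL_comm_hR h t _ j))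
    (fun j => ((opL_comm_hR h t (word h w) j).smul_left _).add_left ((opL_comm_hR h t _ j).smul_left _)) (by
    rw [Module.End.mul_apply, Lw_dd, LinearMap.add_apply, LinearMap.smul_apply, LinearMap.smul_apply, Lw_dd, Lw_dd,
      hL_dd_down h t hw])

theorem hR_Rw_eq (h : Exch σ) (t : ℝ) (i : ι) (w : W) :
    hR σ t i * Rw h t w = hJ W * (hL σ t i * Lw h t w) * hJ W := by
  rw [hR, Rw]
  simp only [mul_assoc]
  rw [← mul_assoc (hJ W) (hJ W), hJ_mul_self, one_mul]

theorem hR_comm_Lw (h : Exch σ) (t : ℝ) (i : ι) (w : W) : Commute (hR σ t i) (Lw h t w) :=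
  (opL_comm_hR h t _ i).symm

theorem hL_comm_Rw (h : Exch σ) (t : ℝ) (i : ι) (w : W) : Commute (hL σ t i) (Rw h t w) := by
  rw [Rw, Lw, ← opR_eq]
  exact (opR_comm_hL h t _ i).symm

/-- the averaging map onto the centre -/
noncomputable def avg (h : Exch σ) (t : ℝ) : Module.End ℂ (W → ℂ) :=
  ∑ w, (((t : ℂ)) ^ wlen σ w)⁻¹ • (Lw h t w * Rw h t w)

/-- the centre -/
noncomputable def cen (σ : ι → W) (t : ℝ) : Submodule ℂ (W → ℂ) := ⨅ i, LinearMap.ker (hL σ t i - hR σ t i)

theorem mem_cen {t : ℝ} {v : W → ℂ} : v ∈ cen σ t ↔ ∀ i, hL σ t i v = hR σ t i v := by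
  simp [cen, sub_eq_zero]

theorem avg_mem_cen (h : Exch σ) {t : ℝ} (ht : t ≠ 0) (v : W → ℂ) : avg h t v ∈ cen σ t := by
  rw [mem_cen]
  intro i
  have key : hL σ t i * avg h t - hR σ t i * avg h t = 0 := by
    rw [avg, Finset.mul_sum, Finset.mul_sum, ← Finset.sum_sub_distrib]
    have pair : ∀ w, wlen σ w < wlen σ (σ i * w) →
        (hL σ t i * ((((t : ℂ)) ^ wlen σ w)⁻¹ • (Lw h t w * Rw h t w)) -
          hR σ t i * ((((t : ℂ)) ^ wlen σ w)⁻¹ • (Lw h t w * Rw h t w))) +
        (hL σ t i * ((((t : ℂ)) ^ wlen σ (σ i * w))⁻¹ • (Lw h t (σ i * w) * Rw h t (σ i * w))) -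
          hR σ t i * ((((t : ℂ)) ^ wlen σ (σ i * w))⁻¹ • (Lw h t (σ i * w) * Rw h t (σ i * w)))) = 0 := by
      intro w hw
      have hw' : wlen σ (σ i * (σ i * w)) < wlen σ (σ i * w) := by rwa [h.toInvGen.mul_mul_self]
      have hl : wlen σ (σ i * w) = wlen σ w + 1 := by
        have := h.cases_len i w; omega
      rw [mul_smul_comm, mul_smul_comm, mul_smul_comm, mul_smul_comm]
      rw [← mul_assoc (hL σ t i) (Lw h t w), hL_Lw_up h t hw, ← mul_assoc (hR σ t i) (Lw h t w),
        (hR_comm_Lw h t i w).eq, mul_assoc (Lw h t w),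
        hR_Rw_eq, hL_Lw_up h t hw, ← mul_assoc (hL σ t i) (Lw h t (σ i * w)), hL_Lw_down h t hw',
        h.toInvGen.mul_mul_self, ← mul_assoc (hR σ t i) (Lw h t (σ i * w)),
        (hR_comm_Lw h t i _).eq, mul_assoc (Lw h t (σ i * w)) (hR σ t i), hR_Rw_eq, hL_Lw_down h t hw',
        h.toInvGen.mul_mul_self]
      simp only [Rw, add_mul, mul_add, smul_mul_assoc, mul_smul_comm, smul_add, smul_smul]
      have ht' : (t : ℂ) ≠ 0 := Complex.ofReal_ne_zero.2 ht
      have e : (((t : ℂ)) ^ wlen σ (σ i * w))⁻¹ * (t : ℂ) = (((t : ℂ)) ^ wlen σ w)⁻¹ := by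
        rw [hl, pow_succ, mul_inv, inv_mul_cancel_right₀ ht']
      rw [e]
      abel
    set f := fun w : W => hL σ t i * ((((t : ℂ)) ^ wlen σ w)⁻¹ • (Lw h t w * Rw h t w)) -
        hR σ t i * ((((t : ℂ)) ^ wlen σ w)⁻¹ • (Lw h t w * Rw h t w))
    refine Finset.sum_involution (fun w _ => σ i * w) (fun w _ => ?_) (fun w _ _ e => ?_)
      (fun _ _ => Finset.mem_univ _) (fun w _ => h.toInvGen.mul_mul_self i w)
    · rcases h.cases_len i w with hu | hd
      · exact pair w (by omega)
      · have := pair (σ i * w) (by rw [h.toInvGen.mul_mul_self]; omega)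
        rw [h.toInvGen.mul_mul_self] at this
        rwa [add_comm] at this
    · exact h.ne_one i (mul_eq_right.1 e)
  have h2 := LinearMap.congr_fun key v
  rwa [LinearMap.sub_apply, LinearMap.zero_apply, sub_eq_zero] at h2

/-- the weighted pairing -/
noncomputable def pair' (σ : ι → W) (t : ℝ) (u v : W → ℂ) : ℂ :=
  ∑ x, (t : ℂ) ^ wlen σ x * u x * conj (v x)

theorem pair'_hL (h : Exch σ) (t : ℝ) (i : ι) (u v : W → ℂ) :
    pair' σ t (hL σ t i u) v = pair' σ t u (hL σ t i v) := by
  have expand : ∀ u v : W → ℂ, pair' σ t (hL σ t i u) v =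
      ∑ x, (if wlen σ (σ i * x) < wlen σ x then (t : ℂ) ^ wlen σ x * ((t : ℂ) - 1) else 0) * (u x * conj (v x)) +
      ∑ x, (if wlen σ (σ i * x) < wlen σ x then (t : ℂ) ^ wlen σ x else (t : ℂ) ^ wlen σ x * t) *
        (u (σ i * x) * conj (v x)) := by
    intro u v
    rw [pair', ← Finset.sum_add_distrib]
    refine Finset.sum_congr rfl fun x _ => ?_
    rw [hL_apply]
    split <;> ring
  have hsymm : ∀ u v : W → ℂ, pair' σ t u v = conj (pair' σ t v u) := by
    intro u v
    rw [pair', pair', map_sum]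
    refine Finset.sum_congr rfl fun x _ => ?_
    simp only [map_mul, map_pow, Complex.conj_ofReal, Complex.conj_conj]
    ring
  conv_rhs => rw [hsymm, expand, map_add, map_sum, map_sum]
  rw [expand]
  refine congrArg₂ (· + ·) (Finset.sum_congr rfl fun x _ => ?_) ?_
  · split_ifs <;> simp only [map_mul, map_pow, map_sub, map_one, map_zero, Complex.conj_ofReal, Complex.conj_conj] <;> ring
  · refine Fintype.sum_equiv (Equiv.mulLeft (σ i)) _ _ fun x => ?_
    simp only [Equiv.coe_mulLeft, h.toInvGen.mul_mul_self]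
    rcases h.cases_len i x with hu | hd
    · rw [if_neg (by omega), if_pos (by omega), hu, pow_succ]
      simp only [map_mul, map_pow, Complex.conj_ofReal, Complex.conj_conj]
      ring
    · rw [if_pos (by omega), if_neg (by omega), ← hd, pow_succ]
      simp only [map_mul, map_pow, Complex.conj_ofReal, Complex.conj_conj]
      ring

theorem pair'_opL (h : Exch σ) (t : ℝ) (L : List ι) (u v : W → ℂ) :
    pair' σ t (opL σ t L u) v = pair' σ t u (opL σ t L.reverse v) := by
  induction L generalizing v with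
  | nil => simp
  | cons i L ih =>
    rw [opL_cons, Module.End.mul_apply, pair'_hL h, ih, List.reverse_cons, opL_append, opL_cons, opL_nil,
      mul_one, Module.End.mul_apply]

theorem opR_eq_on_cen (h : Exch σ) {t : ℝ} {v : W → ℂ} (hv : v ∈ cen σ t) (L : List ι) :
    opR σ t L v = opL σ t L.reverse v := by
  induction L with
  | nil => simp
  | cons i L ih =>
    rw [opR_cons, Module.End.mul_apply, ih, ← Module.End.mul_apply (hR σ t i),
      ← (opL_comm_hR h t L.reverse i).eq, Module.End.mul_apply, ← mem_cen.1 hv i, List.reverse_cons,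
      opL_append, opL_cons, opL_nil, mul_one, Module.End.mul_apply]

theorem avg_eq_zero (h : Exch σ) {t : ℝ} (ht : 0 < t) {v : W → ℂ} (hv : v ∈ cen σ t) (h0 : avg h t v = 0) :
    v = 0 := by
  have e : ∀ w : W, pair' σ t ((Lw h t w * Rw h t w) v) v =
      pair' σ t (opL σ t (word h w).reverse v) (opL σ t (word h w).reverse v) := by
    intro w
    rw [Module.End.mul_apply, Rw, Lw, ← opR_eq, opR_eq_on_cen h hv, pair'_opL h]
  have hre : ∀ u : W → ℂ, pair' σ t u u = ((∑ x, t ^ wlen σ x * Complex.normSq (u x) : ℝ) : ℂ) := by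
    intro u
    rw [pair', Complex.ofReal_sum]
    refine Finset.sum_congr rfl fun x _ => ?_
    rw [Complex.ofReal_mul, Complex.ofReal_pow, Complex.normSq_eq_conj_mul_self]
    ring
  have hz : pair' σ t (avg h t v) v = ∑ w, (((t : ℂ)) ^ wlen σ w)⁻¹ * pair' σ t ((Lw h t w * Rw h t w) v) v := by
    rw [avg, LinearMap.sum_apply]
    simp only [pair', Finset.sum_apply, LinearMap.smul_apply, Pi.smul_apply, smul_eq_mul, Finset.mul_sum,
      Finset.sum_mul]
    rw [Finset.sum_comm]
    exact Finset.sum_congr rfl fun w _ => Finset.sum_congr rfl fun x _ => by ring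
  rw [h0, show pair' σ t (0 : W → ℂ) v = 0 by simp [pair']] at hz
  simp only [e, hre, ← Complex.ofReal_pow, ← Complex.ofReal_inv, ← Complex.ofReal_mul, ← Complex.ofReal_sum] at hz
  have hz' := (Complex.ofReal_eq_zero.1 hz.symm)
  have hnn : ∀ w ∈ (Finset.univ : Finset W), 0 ≤ (t ^ wlen σ w)⁻¹ *
      ∑ x, t ^ wlen σ x * Complex.normSq (opL σ t (word h w).reverse v x) := fun w _ =>
    mul_nonneg (inv_nonneg.2 (pow_nonneg ht.le _))
      (Finset.sum_nonneg fun x _ => mul_nonneg (pow_nonneg ht.le _) (Complex.normSq_nonneg _))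
  have h1 := (Finset.sum_eq_zero_iff_of_nonneg hnn).1 hz' 1 (Finset.mem_univ _)
  have hw1 : word h (1 : W) = [] := by
    have := word_reduced h (1 : W)
    unfold IsReducedWord at this
    rw [wprod_word, h.toInvGen.wlen_eq_zero.2 rfl] at this
    exact List.length_eq_zero_iff.1 this
  rw [hw1, h.toInvGen.wlen_eq_zero.2 rfl, pow_zero, inv_one, one_mul, List.reverse_nil, opL_nil] at h1
  funext x
  have h2 := (Finset.sum_eq_zero_iff_of_nonneg
    (fun x _ => mul_nonneg (pow_nonneg ht.le _) (Complex.normSq_nonneg _))).1 h1 x (Finset.mem_univ _)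
  exact Complex.normSq_eq_zero.1 ((mul_eq_zero.1 h2).resolve_left (pow_ne_zero _ ht.ne'))

theorem continuous_hL {α : Type*} [TopologicalSpace α] (i : ι) {s : α → ℝ} (hs : Continuous s) {v : α → W → ℂ}
    (hv : Continuous v) : Continuous fun a => hL σ (s a) i (v a) := by
  refine continuous_pi fun x => ?_
  simp only [hL_apply]
  split <;> fun_prop

theorem continuous_opL {α : Type*} [TopologicalSpace α] (L : List ι) {s : α → ℝ} (hs : Continuous s) {v : α → W → ℂ}
    (hv : Continuous v) : Continuous fun a => opL σ (s a) L (v a) := by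
  induction L with
  | nil => simpa using hv
  | cons i L ih =>
    simp only [opL_cons, Module.End.mul_apply]
    exact continuous_hL i hs ih

theorem continuous_hJ {α : Type*} [TopologicalSpace α] {v : α → W → ℂ} (hv : Continuous v) :
    Continuous fun a => hJ W (v a) :=
  continuous_pi fun x => (continuous_apply x⁻¹).comp hv

theorem continuous_avg (h : Exch σ) (v : W → ℂ) : Continuous fun t : Set.Ici (1 : ℝ) => avg h (t : ℝ) v := by
  simp only [avg, LinearMap.sum_apply, LinearMap.smul_apply, Module.End.mul_apply, Rw, Lw]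
  refine continuous_finsetSum _ fun w _ => ?_
  refine Continuous.fun_smul ?_ ?_
  · refine ((Complex.continuous_ofReal.comp continuous_subtype_val).pow _).inv₀ fun t => pow_ne_zero _ ?_
    exact Complex.ofReal_ne_zero.2 (ne_of_gt (lt_of_lt_of_le one_pos t.2))
  · exact continuous_opL _ continuous_subtype_val
      (continuous_hJ (continuous_opL _ continuous_subtype_val (continuous_hJ continuous_const)))

/-- the dimension of the centre is constant for `t ≥ 1` -/
theorem finrank_cen_eq [Fintype ι] (h : Exch σ) {t : ℝ} (ht : 1 ≤ t) :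
    Module.finrank ℂ (cen σ t) = Module.finrank ℂ (cen σ 1) := by
  have hlc : IsLocallyConstant fun t : Set.Ici (1 : ℝ) => Module.finrank ℂ (cen σ (t : ℝ)) := by
    rw [IsLocallyConstant.iff_eventually_eq]
    intro t₀
    have ht0 : (0 : ℝ) < (t₀ : ℝ) := lt_of_lt_of_le one_pos t₀.2
    let d := Module.finrank ℂ (cen σ (t₀ : ℝ))
    let b := Module.finBasis ℂ (cen σ (t₀ : ℝ))
    have hli : LinearIndependent ℂ fun k => avg h (t₀ : ℝ) (b k : W → ℂ) := by
      have := b.linearIndependent.map' ((avg h (t₀ : ℝ)).comp (cen σ (t₀ : ℝ)).subtype) (by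
        rw [LinearMap.ker_eq_bot']
        intro v hv
        exact Subtype.ext (avg_eq_zero h ht0 v.2 hv))
      exact this
    have hlow := (continuous_pi fun k => continuous_avg h (b k : W → ℂ)).continuousAt.eventually hli.eventually
    obtain ⟨C, hC⟩ := Submodule.exists_isCompl (cen σ (t₀ : ℝ))
    let u := Module.finBasis ℂ C
    let D : ℝ → (W → ℂ) →ₗ[ℂ] (ι → W → ℂ) := fun t => LinearMap.pi fun i => hL σ t i - hR σ t i
    have hker : ∀ t, LinearMap.ker (D t) = cen σ t := fun t => by rw [LinearMap.ker_pi]; rfl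
    have hli2 : LinearIndependent ℂ fun k => D (t₀ : ℝ) (u k : W → ℂ) := by
      have := u.linearIndependent.map' ((D (t₀ : ℝ)).comp C.subtype) (by
        rw [LinearMap.ker_eq_bot']
        intro v hv
        have h1 : (v : W → ℂ) ∈ cen σ (t₀ : ℝ) := by rw [← hker]; exact hv
        exact Subtype.ext (Submodule.disjoint_def.1 hC.disjoint _ h1 v.2))
      exact this
    have hD : ∀ k, Continuous fun t : Set.Ici (1 : ℝ) => D (t : ℝ) (u k : W → ℂ) := fun k =>
      continuous_pi fun i => by
        show Continuous fun t : Set.Ici (1 : ℝ) => hL σ (t : ℝ) i _ - hJ W (hL σ (t : ℝ) i (hJ W _))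
        exact (continuous_hL i continuous_subtype_val continuous_const).sub
          (continuous_hJ (continuous_hL i continuous_subtype_val (continuous_hJ continuous_const)))
    have hup := (continuous_pi fun k => hD k).continuousAt.eventually hli2.eventually
    filter_upwards [hlow, hup] with t h1 h2
    have htne : (t : ℝ) ≠ 0 := ne_of_gt (lt_of_lt_of_le one_pos t.2)
    refine le_antisymm ?_ ?_
    · have h3 : Module.finrank ℂ C ≤ Module.finrank ℂ (LinearMap.range (D (t : ℝ))) := by
        have := LinearIndependent.fintype_card_le_finrank (R := ℂ)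
          (b := fun k => (⟨D (t : ℝ) (u k : W → ℂ), ⟨_, rfl⟩⟩ : LinearMap.range (D (t : ℝ))))
          (LinearIndependent.of_comp (LinearMap.range (D (t : ℝ))).subtype h2)
        simpa using this
      have h4 := LinearMap.finrank_range_add_finrank_ker (D (t : ℝ))
      rw [hker] at h4
      have h5 := Submodule.finrank_add_eq_of_isCompl hC
      omega
    · have := LinearIndependent.fintype_card_le_finrank (R := ℂ)
        (b := fun k => (⟨avg h (t : ℝ) (b k : W → ℂ), avg_mem_cen h htne _⟩ : cen σ (t : ℝ)))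
        (LinearIndependent.of_comp (cen σ (t : ℝ)).subtype h1)
      simpa using this
  haveI : PreconnectedSpace (Set.Ici (1 : ℝ)) := isPreconnected_iff_preconnectedSpace.1 isPreconnected_Ici
  exact hlc.apply_eq_of_preconnectedSpace ⟨t, ht⟩ ⟨1, Set.self_mem_Ici⟩

/-- at `t = 1` the centre consists of class functions -/
theorem finrank_cen_one (h : Exch σ) : Module.finrank ℂ (cen σ 1) = Nat.card (ConjClasses W) := by
  let Φ : (ConjClasses W → ℂ) →ₗ[ℂ] (W → ℂ) := LinearMap.funLeft ℂ ℂ ConjClasses.mk
  have hrange : LinearMap.range Φ = cen σ 1 := by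
    ext v
    have hmem : v ∈ cen σ 1 ↔ ∀ i x, v (σ i * x) = v (x * σ i) := by
      rw [mem_cen]
      constructor
      · intro hv i x
        have := congrFun (hv i) x
        rw [hL_apply, hR_apply h] at this
        simpa using this
      · intro hv i
        funext x
        rw [hL_apply, hR_apply h]
        simpa using hv i x
    rw [hmem]
    constructor
    · rintro ⟨f, rfl⟩ i x
      show f (ConjClasses.mk _) = f (ConjClasses.mk _)
      rw [ConjClasses.mk_eq_mk_iff_isConj.2 (isConj_iff.2 ⟨σ i, by rw [← mul_assoc, h.toInvGen.mul_self, one_mul, h.toInvGen.inv_eq]⟩ : IsConj (σ i * x) (x * σ i))]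
    · intro hv
      have hinv : ∀ g x : W, v (g * x * g⁻¹) = v x := by
        intro g
        obtain ⟨L, rfl⟩ := h.toInvGen.surj g
        induction L with
        | nil => intro x; simp
        | cons i L ih =>
          intro x
          rw [wprod_cons, show σ i * wprod σ L * x * (σ i * wprod σ L)⁻¹ =
            σ i * (wprod σ L * x * (wprod σ L)⁻¹ * (σ i)⁻¹) by group, h.toInvGen.inv_eq, hv,
            mul_assoc, h.toInvGen.mul_self, mul_one, ih]
      refine ⟨Quotient.lift v fun a b hab => ?_, funext fun x => rfl⟩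
      obtain ⟨c, rfl⟩ := isConj_iff.1 hab
      exact (hinv c a).symm
  rw [← hrange, LinearMap.finrank_range_of_inj (LinearMap.funLeft_injective_of_surjective ℂ ℂ _ ConjClasses.mk_surjective),
    Module.finrank_fintype_fun_eq_card, Nat.card_eq_fintype_card]

end Cfsg.Lib.LieBN.Hecke
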