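/-
The Hecke algebra of a (B,N)-pair with equal parameters: the centre and the Weyl group classes.
-/
import Cfsg.Agent.Lib.LieBN.Cells
import Cfsg.Agent.Lib.LieBN.HeckeCentre
import Cfsg.Agent.Lib.Blocks.HeckeCharacters

set_option autoImplicit false
set_option linter.unusedSectionVars false

namespace Cfsg.Lib.LieBN.Hecke

open scoped Classical
open Cfsg.Lib.Blocks (gOfFun coeff_gOfFun gr_ext gr_mul_apply gr_mul_apply')
open Cfsg.Lib.Blocks.HeckeChar

variable {G : Type*} [Group G] [Fintype G] {P : Cfsg.BNPair G} [Fintype (Weyl P)]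

/-- functions on the Weyl group as elements of the Hecke algebra -/
noncomputable def phi (P : Cfsg.BNPair G) : (Weyl P → ℂ) →ₗ[ℂ] MonoidAlgebra ℂ G where
  toFun v := gOfFun fun g => (Nat.card P.B : ℂ)⁻¹ * v (cl P (g : G ⧸ P.B))
  map_add' u v := gr_ext fun g => by simp [mul_add]
  map_smul' c v := gr_ext fun g => by simp [mul_left_comm]

theorem phi_apply (v : Weyl P → ℂ) (g : G) :
    (phi P v).coeff g = (Nat.card P.B : ℂ)⁻¹ * v (cl P (g : G ⧸ P.B)) := by simp [phi]

theorem cl_mul_left {b : G} (hb : b ∈ P.B) (g : G) : cl P ((b * g : G) : G ⧸ P.B) = cl P (g : G ⧸ P.B) :=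
  cl_eq ((cl_spec g).mul_left hb)

theorem cl_mul_right {b : G} (hb : b ∈ P.B) (g : G) : cl P ((g * b : G) : G ⧸ P.B) = cl P (g : G ⧸ P.B) :=
  cl_eq ((cl_spec g).mul_right hb)

theorem eH_mul_phi (v : Weyl P → ℂ) : eH P.B * phi P v = phi P v := by
  refine gr_ext fun c => ?_
  rw [eH_mul_apply]
  simp only [phi_apply, cl_mul_left (inv_mem (Subtype.coe_prop _))]
  rw [Finset.sum_const, Finset.card_univ, ← Nat.card_eq_fintype_card, nsmul_eq_mul, ← mul_assoc,
    inv_mul_cancel₀ (Nat.cast_ne_zero.2 Nat.card_pos.ne'), one_mul]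

theorem phi_mul_eH (v : Weyl P → ℂ) : phi P v * eH P.B = phi P v := by
  refine gr_ext fun c => ?_
  rw [mul_eH_apply]
  simp only [phi_apply, cl_mul_right (inv_mem (Subtype.coe_prop _))]
  rw [Finset.sum_const, Finset.card_univ, ← Nat.card_eq_fintype_card, nsmul_eq_mul, ← mul_assoc,
    inv_mul_cancel₀ (Nat.cast_ne_zero.2 Nat.card_pos.ne'), one_mul]

theorem phi_dd_one : phi P (dd 1) = eH P.B := by
  refine gr_ext fun g => ?_
  simp only [phi_apply, dd_apply, eH, coeff_gOfFun]
  by_cases hg : g ∈ P.B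
  · rw [if_pos hg, if_pos (cl_eq (InC.one_iff.2 hg)), mul_one]
  · have h1 : cl P (g : G ⧸ P.B) ≠ 1 := fun e => hg (InC.one_iff.1 (e ▸ cl_spec g))
    rw [if_neg hg, if_neg h1, mul_zero]

theorem single_eq_dd [DecidableEq (Weyl P)] (w : Weyl P) : (Pi.single w (1 : ℂ) : Weyl P → ℂ) = dd w := by
  funext x
  simp [dd_apply, Pi.single_apply]

theorem card_cell (w : Weyl P) :
    Nat.card {g : G // cl P (g : G ⧸ P.B) = w} = Nat.card P.B * ncell P w := by
  rw [ncell, ← Nat.card_prod]
  exact Nat.card_congr (QuotientGroup.preimageMkEquivSubgroupProdSet P.B {x : G ⧸ P.B | cl P x = w})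

theorem phi_injective : Function.Injective (phi P) := by
  intro u v e
  funext w
  obtain ⟨g, hg⟩ := InC.exists_mem (P := P) w
  have h := congrArg (fun x : MonoidAlgebra ℂ G => x.coeff g) e
  simp only [phi_apply, cl_eq hg, mul_eq_mul_left_iff, inv_eq_zero, Nat.cast_eq_zero, Nat.card_pos.ne', or_false] at h
  exact h

theorem coeff_phi_mul (u x : Weyl P) (c : G) :
    (phi P (dd u) * phi P (dd x)).coeff c = (Nat.card P.B : ℂ)⁻¹ * (Nat.card P.B : ℂ)⁻¹ *
      ((Finset.univ.filter fun a : G =>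
        cl P (a : G ⧸ P.B) = u ∧ cl P ((a⁻¹ * c : G) : G ⧸ P.B) = x).card : ℂ) := by
  rw [gr_mul_apply, ← Finset.sum_boole, Finset.mul_sum]
  refine Finset.sum_congr rfl fun a _ => ?_
  simp only [phi_apply, dd_apply]
  split_ifs <;> simp_all

theorem phi_mul_add {u x : Weyl P} (hl : wlen (sref P) (u * x) = wlen (sref P) u + wlen (sref P) x) :
    phi P (dd u) * phi P (dd x) = phi P (dd (u * x)) := by
  refine gr_ext fun c => ?_
  rw [coeff_phi_mul, phi_apply, dd_apply]
  by_cases hc : cl P (c : G ⧸ P.B) = u * x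
  · obtain ⟨g₁, g₂, h1, h2, e⟩ := (hc ▸ cl_spec c).factor
    have hset : (Finset.univ.filter fun a : G => cl P (a : G ⧸ P.B) = u ∧ cl P ((a⁻¹ * c : G) : G ⧸ P.B) = x) =
        (Finset.univ : Finset P.B).image fun b : P.B => g₁ * (b : G) := by
      ext a
      simp only [Finset.mem_filter, Finset.mem_univ, true_and, Finset.mem_image]
      constructor
      · rintro ⟨ha, hb⟩
        have h3 := pred_unique hl h1 (ha ▸ cl_spec a) h2 (hb ▸ cl_spec (a⁻¹ * c)) (by rw [mul_inv_cancel_left, e])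
        exact ⟨⟨g₁⁻¹ * a, QuotientGroup.eq.1 h3⟩, mul_inv_cancel_left g₁ a⟩
      · rintro ⟨b, rfl⟩
        refine ⟨cl_eq (h1.mul_right b.2), cl_eq ?_⟩
        rw [e, show (g₁ * (b : G))⁻¹ * (g₁ * g₂) = (b : G)⁻¹ * g₂ by group]
        exact h2.mul_left (inv_mem b.2)
    rw [hset, Finset.card_image_of_injective _ (fun a b h => Subtype.ext (mul_left_cancel h)), Finset.card_univ,
      ← Nat.card_eq_fintype_card, if_pos hc, mul_one, mul_assoc, inv_mul_cancel₀ (Nat.cast_ne_zero.2 Nat.card_pos.ne'),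
      mul_one]
  · rw [if_neg hc, mul_zero, Finset.filter_false_of_mem fun a _ ha => hc ?_, Finset.card_empty, Nat.cast_zero, mul_zero]
    refine cl_eq ?_
    have := InC.mul_of_add hl (ha.1 ▸ cl_spec a) (ha.2 ▸ cl_spec (a⁻¹ * c))
    rwa [mul_inv_cancel_left] at this

theorem sum_phi (v : Weyl P → ℂ) : ∑ g : G, (phi P v).coeff g = ∑ w, (ncell P w : ℂ) * v w := by
  rw [← Finset.sum_fiberwise Finset.univ (fun g : G => cl P (g : G ⧸ P.B)) fun g => (phi P v).coeff g]
  refine Finset.sum_congr rfl fun w _ => ?_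
  rw [Finset.sum_congr rfl fun g hg => by rw [phi_apply, (Finset.mem_filter.1 hg).2], Finset.sum_const,
    ← Fintype.card_subtype, ← Nat.card_eq_fintype_card, card_cell, nsmul_eq_mul, Nat.cast_mul, ← mul_assoc,
    mul_comm (Nat.card P.B : ℂ), mul_assoc (ncell P w : ℂ),
    mul_inv_cancel₀ (Nat.cast_ne_zero.2 Nat.card_pos.ne'), mul_one]

theorem exists_phi {y : MonoidAlgebra ℂ G} (h1 : eH P.B * y = y) (h2 : y * eH P.B = y) :
    ∃ v, phi P v = y := by
  have hl : ∀ b ∈ P.B, ∀ c, y.coeff (b * c) = y.coeff c := by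
    intro b hb c
    conv_lhs => rw [← h1, eH_mul_apply]
    conv_rhs => rw [← h1, eH_mul_apply]
    congr 1
    refine Fintype.sum_equiv (Equiv.mulLeft (⟨b, hb⟩ : P.B)⁻¹) _ _ fun h => ?_
    simp [mul_assoc]
  have hr : ∀ b ∈ P.B, ∀ c, y.coeff (c * b) = y.coeff c := by
    intro b hb c
    conv_lhs => rw [← h2, mul_eH_apply]
    conv_rhs => rw [← h2, mul_eH_apply]
    congr 1
    refine Fintype.sum_equiv (Equiv.mulRight (⟨b, hb⟩ : P.B)⁻¹) _ _ fun h => ?_
    simp [mul_assoc]
  choose r hr' using InC.exists_mem (P := P)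
  refine ⟨fun w => (Nat.card P.B : ℂ) * y.coeff (r w), gr_ext fun g => ?_⟩
  obtain ⟨b₁, k₁, b₂, k₂, e⟩ := (cl_spec g).trans (hr' (cl P (g : G ⧸ P.B)))
  rw [phi_apply, ← mul_assoc, inv_mul_cancel₀ (Nat.cast_ne_zero.2 Nat.card_pos.ne'), one_mul]
  conv_rhs => rw [e, hr b₂ k₂, hl b₁ k₁]

theorem phi_mul_self {q : ℕ} {s : P.S} (hq : ncell P (sref P s) = q) :
    phi P (dd (sref P s)) * phi P (dd (sref P s)) =
      ((q : ℂ) - 1) • phi P (dd (sref P s)) + (q : ℂ) • eH P.B := by
  set T := phi P (dd (sref P s)) with hT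
  obtain ⟨v, hv⟩ := exists_phi (P := P) (y := T * T) (by rw [← mul_assoc, eH_mul_phi]) (by rw [mul_assoc, phi_mul_eH])
  have hne : sref P s ≠ 1 := sref_ne_one s
  have h0 : ∀ w, w ≠ 1 → w ≠ sref P s → v w = 0 := by
    intro w hw1 hws
    obtain ⟨g, hg⟩ := InC.exists_mem (P := P) w
    have h := congrArg (fun x : MonoidAlgebra ℂ G => x.coeff g) hv
    simp only [phi_apply, cl_eq hg, hT, coeff_phi_mul] at h
    rw [Finset.filter_false_of_mem fun a _ ha => ?_, Finset.card_empty, Nat.cast_zero, mul_zero] at h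
    · exact (mul_eq_zero.1 h).resolve_left (inv_ne_zero (Nat.cast_ne_zero.2 Nat.card_pos.ne'))
    rcases InC.mul_sref (ha.1 ▸ cl_spec a) (ha.2 ▸ cl_spec (a⁻¹ * g)) with k | k <;>
      rw [mul_inv_cancel_left] at k
    · exact hw1 (by rw [hg.unique k, sref_mul_self])
    · exact hws (hg.unique k)
  have h1 : v 1 = q := by
    have h := congrArg (fun x : MonoidAlgebra ℂ G => x.coeff 1) hv
    simp only [phi_apply, cl_eq (InC.one_iff.2 (one_mem P.B)), hT, coeff_phi_mul] at h
    have hset : (Finset.univ.filter fun a : G =>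
        cl P (a : G ⧸ P.B) = sref P s ∧ cl P ((a⁻¹ * 1 : G) : G ⧸ P.B) = sref P s) =
        Finset.univ.filter fun a : G => cl P (a : G ⧸ P.B) = sref P s := by
      ext a
      simp only [Finset.mem_filter, Finset.mem_univ, true_and, and_iff_left_iff_imp]
      intro ha
      rw [mul_one, ← (invGen P).inv_eq s]
      exact cl_eq ((ha ▸ cl_spec a : InC P a (sref P s)).inv)
    rw [hset, ← Fintype.card_subtype, ← Nat.card_eq_fintype_card, card_cell, hq, Nat.cast_mul] at h
    have hB : (Nat.card P.B : ℂ) ≠ 0 := Nat.cast_ne_zero.2 Nat.card_pos.ne'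
    field_simp at h
    exact h
  have hsum : ∑ g : G, (T * T).coeff g = (q : ℂ) * q := by
    simp only [gr_mul_apply]
    rw [Finset.sum_comm]
    have : ∀ a : G, ∑ c : G, T.coeff a * T.coeff (a⁻¹ * c) = T.coeff a * ∑ c : G, T.coeff c := fun a => by
      rw [← Finset.mul_sum]
      congr 1
      exact Fintype.sum_equiv (Equiv.mulLeft a⁻¹) _ _ fun c => rfl
    simp only [this, ← Finset.sum_mul]
    have e : ∑ c : G, T.coeff c = q := by
      rw [hT, sum_phi, Finset.sum_eq_single (sref P s)]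
      · rw [dd_apply, if_pos rfl, hq, mul_one]
      · intro w _ hw; rw [dd_apply, if_neg hw, mul_zero]
      · simp
    rw [e]
  rw [← hv, sum_phi, Finset.sum_eq_add (1 : Weyl P) (sref P s) hne.symm
    (fun w _ hw => by rw [h0 w hw.1 hw.2, mul_zero]) (by simp) (by simp), ncell_one, hq, h1] at hsum
  have hs : v (sref P s) = (q : ℂ) - 1 := by
    have hq0 : (q : ℂ) ≠ 0 := by
      rw [← hq, Nat.cast_ne_zero]
      obtain ⟨g, hg⟩ := InC.exists_mem (P := P) (sref P s)
      haveI : Nonempty {x : G ⧸ P.B // cl P x = sref P s} := ⟨⟨(g : G ⧸ P.B), cl_eq hg⟩⟩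
      exact Nat.card_pos.ne'
    refine mul_left_cancel₀ hq0 ?_
    push_cast at hsum
    linear_combination hsum
  rw [← hv, ← phi_dd_one, hT, ← map_smul, ← map_smul, ← map_add]
  congr 1
  funext w
  simp only [Pi.add_apply, Pi.smul_apply, dd_apply, smul_eq_mul]
  by_cases hw1 : w = 1
  · subst hw1; rw [h1, if_neg hne.symm, if_pos rfl]; ring
  · by_cases hws : w = sref P s
    · subst hws; rw [hs, if_pos rfl, if_neg hne]; ring
    · rw [h0 w hw1 hws, if_neg hws, if_neg hw1]; ring

variable {q : ℕ}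

theorem phi_left (hq : ∀ s : P.S, ncell P (sref P s) = q) (s : P.S) (v : Weyl P → ℂ) :
    phi P (dd (sref P s)) * phi P v = phi P (hL (sref P) (q : ℝ) s v) := by
  suffices (LinearMap.mulLeft ℂ (phi P (dd (sref P s)))).comp (phi P) = (phi P).comp (hL (sref P) (q : ℝ) s) from
    LinearMap.congr_fun this v
  refine (Pi.basisFun ℂ (Weyl P)).ext fun w => ?_
  rw [Pi.basisFun_apply, single_eq_dd]
  show phi P (dd (sref P s)) * phi P (dd w) = phi P (hL (sref P) (q : ℝ) s (dd w))
  have hls : wlen (sref P) (sref P s) = 1 := (exch (P := P)).wlen_sigma s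
  rcases (exch (P := P)).cases_len s w with hu | hd
  · rw [hL_dd_up exch _ (by omega), phi_mul_add (by omega)]
  · have e : phi P (dd w) = phi P (dd (sref P s)) * phi P (dd (sref P s * w)) := by
      rw [phi_mul_add (by rw [(invGen P).mul_mul_self]; omega), (invGen P).mul_mul_self]
    rw [hL_dd_down exch _ (by omega), map_add, map_smul, map_smul]
    conv_lhs => rw [e, ← mul_assoc, phi_mul_self (hq s), add_mul, smul_mul_assoc, smul_mul_assoc, eH_mul_phi, ← e]
    push_cast
    rfl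

theorem phi_right (hq : ∀ s : P.S, ncell P (sref P s) = q) (s : P.S) (v : Weyl P → ℂ) :
    phi P v * phi P (dd (sref P s)) = phi P (hR (sref P) (q : ℝ) s v) := by
  suffices (LinearMap.mulRight ℂ (phi P (dd (sref P s)))).comp (phi P) = (phi P).comp (hR (sref P) (q : ℝ) s) from
    LinearMap.congr_fun this v
  refine (Pi.basisFun ℂ (Weyl P)).ext fun w => ?_
  rw [Pi.basisFun_apply, single_eq_dd]
  show phi P (dd w) * phi P (dd (sref P s)) = phi P (hJ (Weyl P) (hL (sref P) (q : ℝ) s (hJ (Weyl P) (dd w))))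
  have hls : wlen (sref P) (sref P s) = 1 := (exch (P := P)).wlen_sigma s
  have ei : sref P s * w⁻¹ = (w * sref P s)⁻¹ := by rw [mul_inv_rev, (invGen P).inv_eq]
  rw [hJ_dd]
  rcases (exch (P := P)).cases_right w s with hu | hd
  · rw [hL_dd_up exch _ (by rw [ei, (exch (P := P)).wlen_inv', (exch (P := P)).wlen_inv']; omega), hJ_dd, ei,
      inv_inv, phi_mul_add (by omega)]
  · have e : phi P (dd w) = phi P (dd (w * sref P s)) * phi P (dd (sref P s)) := by
      rw [phi_mul_add (by rw [(invGen P).mul_self_mul]; omega), (invGen P).mul_self_mul]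
    rw [hL_dd_down exch _ (by rw [ei, (exch (P := P)).wlen_inv', (exch (P := P)).wlen_inv']; omega), map_add,
      map_smul, map_smul, hJ_dd, hJ_dd, inv_inv, ei, inv_inv, map_add, map_smul, map_smul]
    conv_lhs => rw [e, mul_assoc, phi_mul_self (hq s), mul_add, mul_smul_comm, mul_smul_comm, phi_mul_eH, ← e]
    push_cast
    rfl

theorem finrank_zH_eq [Fintype P.S] (hq : ∀ s : P.S, ncell P (sref P s) = q) (h1 : 1 ≤ q) :
    Module.finrank ℂ (zH P.B) = Nat.card (ConjClasses (Weyl P)) := by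
  rw [← finrank_cen_one (σ := sref P) exch, ← finrank_cen_eq (σ := sref P) exch (t := (q : ℝ)) (by exact_mod_cast h1)]
  have hmap : (cen (sref P) (q : ℝ)).map (phi P) = zH P.B := by
    ext x
    constructor
    · rintro ⟨v, hv, rfl⟩
      refine ⟨eH_mul_phi v, phi_mul_eH v, fun y y1 y2 => ?_⟩
      have hgen : ∀ w, phi P v * phi P (dd w) = phi P (dd w) * phi P v := by
        intro w
        obtain ⟨L, hL, rfl⟩ := (invGen P).exists_reduced w
        induction L with
        | nil => rw [wprod_nil, phi_dd_one, phi_mul_eH, eH_mul_phi]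
        | cons s L ih =>
          have n1 := wlen_le (σ := sref P) L
          have n2 := (invGen P).wlen_mul_le_succ s (wprod (sref P) L)
          rw [wprod_cons, List.length_cons] at hL
          rw [wprod_cons, ← phi_mul_add (by rw [(exch (P := P)).wlen_sigma]; omega), ← mul_assoc,
            phi_right hq s v, ← mem_cen.1 hv s, ← phi_left hq s v, mul_assoc, ih (by omega), ← mul_assoc]
      obtain ⟨u, rfl⟩ := exists_phi y1 y2
      have : (LinearMap.mulLeft ℂ (phi P v)).comp (phi P) = (LinearMap.mulRight ℂ (phi P v)).comp (phi P) :=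
        (Pi.basisFun ℂ (Weyl P)).ext fun w => by rw [Pi.basisFun_apply, single_eq_dd]; exact hgen w
      exact LinearMap.congr_fun this u
    · rintro ⟨x1, x2, x3⟩
      obtain ⟨v, rfl⟩ := exists_phi x1 x2
      refine ⟨v, mem_cen.2 fun s => phi_injective (P := P) ?_, rfl⟩
      rw [← phi_left hq, ← phi_right hq]
      exact (x3 _ (eH_mul_phi _) (phi_mul_eH _)).symm
  rw [← hmap]
  exact (Submodule.equivMapOfInjective _ phi_injective _).finrank_eq.symm

end Cfsg.Lib.LieBN.Hecke
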